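import Cfsg.Agent.Lib.PauliFour.Lines

/-!
Products of differences of anticommuting involutions permute them.
-/

set_option autoImplicit false
set_option linter.unusedSectionVars false
set_option linter.style.haveILetI false

namespace CfsgLib.PauliFour

open scoped Matrix
open Cfsg.Geo CfsgLib.SmallDim

variable {F : Type*} [Field F] {ι : Type} [Fintype ι] [DecidableEq ι] {α : Type*} [DecidableEq α]

/-- Pairwise anticommuting involutory matrices. -/
structure Anti (Γ : α → Matrix ι ι F) : Prop where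
  sq : ∀ i, Γ i * Γ i = 1
  anti : ∀ i j, i ≠ j → Γ i * Γ j = -(Γ j * Γ i)

variable {Γ : α → Matrix ι ι F}

theorem Anti.sub_sq (h : Anti Γ) {i j : α} (hij : i ≠ j) : (Γ i - Γ j) * (Γ i - Γ j) = (2 : F) • 1 := by
  simp only [Matrix.sub_mul, Matrix.mul_sub, h.sq, h.anti i j hij, two_smul]
  abel

/-- Conjugation by a difference negates and swaps. -/
theorem Anti.sub_swap (h : Anti Γ) {i j : α} (hij : i ≠ j) (k : α) :
    (Γ i - Γ j) * Γ k = -(Γ (Equiv.swap i j k) * (Γ i - Γ j)) := by
  rcases eq_or_ne k i with rfl | hki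
  · rw [Equiv.swap_apply_left, Matrix.sub_mul, Matrix.mul_sub, h.sq, h.sq]
    simp
  rcases eq_or_ne k j with rfl | hkj
  · rw [Equiv.swap_apply_right, Matrix.sub_mul, Matrix.mul_sub, h.sq, h.sq]
    simp
  · rw [Equiv.swap_apply_of_ne_of_ne hki hkj, Matrix.sub_mul, Matrix.mul_sub, h.anti k i hki, h.anti k j hkj]
    abel

/-- A product of two differences permutes without sign. -/
theorem Anti.sub_sub_perm (h : Anti Γ) {i j k l : α} (hij : i ≠ j) (hkl : k ≠ l) (m : α) :
    (Γ i - Γ j) * (Γ k - Γ l) * Γ m =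
      Γ ((Equiv.swap i j * Equiv.swap k l) m) * ((Γ i - Γ j) * (Γ k - Γ l)) := by
  rw [mul_assoc, h.sub_swap hkl, Matrix.mul_neg, ← mul_assoc, h.sub_swap hij, Matrix.neg_mul, neg_neg,
    mul_assoc, Equiv.Perm.mul_apply]

variable [Finite F] {R : Subgroup (GL ι F)}

/-- An element permuting a generating set of lines normalises the group. -/
theorem mem_normalizer_of_lines (hR : IsPauli R) [Nonempty ι] {y : GL ι F}
    (S : Set (R ⧸ Subgroup.center R)) (hS : Subgroup.closure S = ⊤)
    (hy : ∀ q ∈ S, ∃ q' : R, ∃ c : F,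
      (y : Matrix ι ι F) * rep R q = (c • ((q' : GL ι F) : Matrix ι ι F)) * y ∧ (c = 1 ∨ c = -1))
    (hn : 1 < Fintype.card ι) :
    y ∈ Subgroup.normalizer (R : Set (GL ι F)) := by
  have hneg := hR.neg_one_mem hn
  let R0 : Subgroup R :=
    { carrier := {x | y * x * y⁻¹ ∈ R}
      one_mem' := by simp
      mul_mem' := fun {a b} ha hb => by
        show y * ((a : GL ι F) * b) * y⁻¹ ∈ R
        have := R.mul_mem ha hb
        simpa [mul_assoc] using this
      inv_mem' := fun {a} ha => by
        show y * ((a : GL ι F))⁻¹ * y⁻¹ ∈ R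
        have := R.inv_mem ha
        simpa [mul_assoc] using this }
  have hcen : Subgroup.center R ≤ R0 := fun z hz => by
    obtain ⟨c, hc⟩ := hR.centraliser_scalar (M := ((z : GL ι F) : Matrix ι ι F)) (by
      rintro _ ⟨w, hw, rfl⟩
      exact congrArg (fun u : R => ((u : GL ι F) : Matrix ι ι F)) (Subgroup.mem_center_iff.1 hz ⟨w, hw⟩).symm)
    show y * z * y⁻¹ ∈ R
    have : y * (z : GL ι F) = z * y := Units.ext (by simp [hc])
    rw [this, mul_inv_cancel_right]
    exact z.2
  have hmap : R0.map (QuotientGroup.mk' (Subgroup.center R)) = ⊤ := by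
    rw [eq_top_iff, ← hS, Subgroup.closure_le]
    intro q hq
    refine ⟨q.out, ?_, QuotientGroup.out_eq' q⟩
    obtain ⟨q', c, h, hc⟩ := hy q hq
    show y * (q.out : GL ι F) * y⁻¹ ∈ R
    rcases hc with rfl | rfl
    · have : y * (q.out : GL ι F) = (q' : GL ι F) * y := Units.ext (by simpa [rep] using h)
      rw [this, mul_inv_cancel_right]
      exact q'.2
    · have : y * (q.out : GL ι F) = -(q' : GL ι F) * y := Units.ext (by simpa [rep] using h)
      rw [this, mul_inv_cancel_right, ← neg_one_mul]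
      exact R.mul_mem hneg q'.2
  have htop : R0 = ⊤ := by
    have h1 := congrArg (Subgroup.comap (QuotientGroup.mk' (Subgroup.center R))) hmap
    rwa [Subgroup.comap_map_eq, QuotientGroup.ker_mk', sup_eq_left.2 hcen, Subgroup.comap_top] at h1
  refine Subgroup.mem_normalizer_fintype fun x hx => ?_
  exact show (⟨x, hx⟩ : R) ∈ R0 from htop ▸ Subgroup.mem_top _

end CfsgLib.PauliFour
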