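import Cfsg.Agent.Lib.PauliFour.Four
import Cfsg.Agent.Lib.PauliFour.Cycle

/-!
Five anticommuting involutions in a Pauli group of dimension four containing a square root of minus one.
-/

set_option autoImplicit false
set_option linter.unusedSectionVars false
set_option linter.style.haveILetI false
set_option linter.unusedSimpArgs false

namespace CfsgLib.PauliFour

open scoped Matrix
open Cfsg.Geo CfsgLib.SmallDim

variable {F : Type*} [Field F] [Finite F] {ι : Type} [Fintype ι] [DecidableEq ι] {R : Subgroup (GL ι F)}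

/-- The matrix of an element of the group. -/
abbrev mt (x : R) : Matrix ι ι F := ((x : GL ι F) : Matrix ι ι F)

theorem mt_mul (x y : R) : mt (x * y) = mt x * mt y := rfl

/-- An element conjugating generators of the lines into the group normalises it. -/
theorem mem_normalizer_of_gens (hR : IsPauli R) [Nonempty ι] {y : GL ι F} {α : Type*} (g : α → R)
    (hS : Subgroup.closure (Set.range fun k => (QuotientGroup.mk (g k) : R ⧸ Subgroup.center R)) = ⊤)
    (hy : ∀ k, y * (g k : GL ι F) * y⁻¹ ∈ R) : y ∈ Subgroup.normalizer (R : Set (GL ι F)) := by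
  let R0 : Subgroup R :=
    { carrier := {x | y * x * y⁻¹ ∈ R}
      one_mem' := by simp
      mul_mem' := fun {a b} ha hb => by
        show y * ((a : GL ι F) * b) * y⁻¹ ∈ R
        have := R.mul_mem ha hb
        simpa [mul_assoc] using this
      inv_mem' := fun {a} ha => by
        show y * ((a : GL ι F))⁻¹ * y⁻¹ ∈ R
        have := R.inv_mem ha
        simpa [mul_assoc] using this }
  have hcen : Subgroup.center R ≤ R0 := fun z hz => by
    obtain ⟨c, hc⟩ := hR.centraliser_scalar (M := ((z : GL ι F) : Matrix ι ι F)) (by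
      rintro _ ⟨w, hw, rfl⟩
      exact congrArg (fun u : R => ((u : GL ι F) : Matrix ι ι F)) (Subgroup.mem_center_iff.1 hz ⟨w, hw⟩).symm)
    show y * z * y⁻¹ ∈ R
    have : y * (z : GL ι F) = z * y := Units.ext (by simp [hc])
    rw [this, mul_inv_cancel_right]
    exact z.2
  have hmap : R0.map (QuotientGroup.mk' (Subgroup.center R)) = ⊤ := by
    rw [eq_top_iff, ← hS, Subgroup.closure_le]
    rintro _ ⟨k, rfl⟩
    exact ⟨g k, hy k, rfl⟩
  have htop : R0 = ⊤ := by
    have h1 := congrArg (Subgroup.comap (QuotientGroup.mk' (Subgroup.center R))) hmap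
    rwa [Subgroup.comap_map_eq, QuotientGroup.ker_mk', sup_eq_left.2 hcen, Subgroup.comap_top] at h1
  refine Subgroup.mem_normalizer_fintype fun x hx => ?_
  exact show (⟨x, hx⟩ : R) ∈ R0 from htop ▸ Subgroup.mem_top _

variable (hR : IsPauli R)
include hR

theorem mem_center_of_scalar {x : R} {c : F} (h : mt x = c • 1) : x ∈ Subgroup.center R :=
  Subgroup.mem_center_iff.2 fun w => Subtype.ext (Units.ext (by
    show mt w * mt x = mt x * mt w
    rw [h]; simp))

theorem mk_sq (x : R) : (QuotientGroup.mk (x * x) : R ⧸ Subgroup.center R) = 1 := by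
  rw [QuotientGroup.eq_one_iff]
  rcases hR.sq x x.2 with h | h
  · exact mem_center_of_scalar hR (c := 1) (by rw [one_smul]; exact h)
  · exact mem_center_of_scalar hR (c := -1) (by rw [neg_one_smul]; exact h)

theorem exists_anti {x : R} (hx : x ∉ Subgroup.center R) : ∃ y : R, mt y * mt x = -(mt x * mt y) := by
  by_contra! h
  refine hx (Subgroup.mem_center_iff.2 fun w => Subtype.ext (Units.ext ?_))
  exact (hR.comm w w.2 x x.2).resolve_right (h w)

variable {i : F} (hi : i * i = -1) {ie : R} (hie : mt ie = i • 1)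
include hi hie

theorem exists_sq_one (x : R) :
    ∃ x' : R, mt x' * mt x' = 1 ∧ ∃ c : F, c ≠ 0 ∧ mt x' = c • mt x := by
  rcases hR.sq x x.2 with h | h
  · exact ⟨x, h, 1, one_ne_zero, (one_smul _ _).symm⟩
  · refine ⟨ie * x, ?_, i, fun h0 => by simp [h0] at hi, ?_⟩
    · rw [mt_mul, hie, Matrix.smul_mul, one_mul, Matrix.smul_mul, Matrix.mul_smul, smul_smul, hi,
        show mt x * mt x = -1 from h]
      simp
    · rw [mt_mul, hie, Matrix.smul_mul, one_mul]

variable (hcard : Fintype.card ι = 4) (h2 : (2 : F) ≠ 0)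
include hcard h2

/-- Five anticommuting involutions generating the lines. -/
theorem exists_frame_gl : ∃ g : Fin 5 → R, Anti (fun k => mt (g k)) ∧
    Subgroup.closure (Set.range fun k => (QuotientGroup.mk (g k) : R ⧸ Subgroup.center R)) = ⊤ := by
  classical
  haveI : Nonempty ι := Fintype.card_pos_iff.1 (by omega)
  haveI : Fintype (R ⧸ Subgroup.center R) := Fintype.ofFinite _
  have h16 := card_lines_four hR hcard h2
  have hne : ∀ x : R, mt x ≠ 0 := fun x => (x : GL ι F).ne_zero
  have hflip : ∀ {M N : Matrix ι ι F}, M * N = -(N * M) → N * M = -(M * N) := fun h => by rw [h, neg_neg]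
  have hanti_nc : ∀ {x y : R}, mt x * mt y = -(mt y * mt x) → x ∉ Subgroup.center R := by
    intro x y h hx
    have h' : mt y * mt x = mt x * mt y :=
      congrArg (fun w : R => mt w) (Subgroup.mem_center_iff.1 hx y)
    rw [h'] at h
    have : (2 : F) • (mt x * mt y) = 0 := by rw [two_smul]; exact eq_neg_iff_add_eq_zero.1 h
    exact ((x : GL ι F) * (y : GL ι F)).ne_zero ((smul_eq_zero.1 this).resolve_left h2)
  -- `a` and `b`
  obtain ⟨a0, ha0⟩ : ∃ a0 : R, a0 ∉ Subgroup.center R := by
    by_contra! h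
    have : Subgroup.center R = ⊤ := (Subgroup.eq_top_iff' _).2 h
    have h1 := (Subgroup.card_mul_index (Subgroup.center R))
    rw [Subgroup.index_eq_card, h16, this, Subgroup.card_top] at h1
    have := Nat.card_pos (α := R)
    omega
  obtain ⟨b0, hb0⟩ := exists_anti hR ha0
  obtain ⟨a, haa, ca, -, ha⟩ := exists_sq_one hR hi hie a0
  obtain ⟨b, hbb, cb, -, hb⟩ := exists_sq_one hR hi hie b0
  have hba : mt b * mt a = -(mt a * mt b) := by
    rw [ha, hb, Matrix.smul_mul, Matrix.mul_smul, Matrix.smul_mul, Matrix.mul_smul, hb0, smul_neg, smul_neg,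
      smul_smul, smul_smul, mul_comm]
  -- `c` commuting with both
  obtain ⟨q, q', hqq, hsame⟩ := Fintype.exists_ne_map_eq_of_card_lt
    (fun q : R ⧸ Subgroup.center R => ((decide (mt q.out * mt a = mt a * mt q.out),
      decide (mt q.out * mt b = mt b * mt q.out)) : Bool × Bool))
    (by rw [← Nat.card_eq_fintype_card, ← Nat.card_eq_fintype_card, h16]; simp)
  simp only [Prod.mk.injEq, decide_eq_decide] at hsame
  have hcomm2 : ∀ z : R, (mt q.out * mt z = mt z * mt q.out ↔ mt q'.out * mt z = mt z * mt q'.out) →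
      mt (q.out * q'.out) * mt z = mt z * mt (q.out * q'.out) := by
    intro z hz
    rw [mt_mul]
    by_cases h : mt q.out * mt z = mt z * mt q.out
    · rw [mul_assoc, hz.1 h, ← mul_assoc, h, mul_assoc]
    · have h1 : mt q.out * mt z = -(mt z * mt q.out) := (hR.comm _ q.out.2 _ z.2).resolve_left h
      have h3 : mt q'.out * mt z = -(mt z * mt q'.out) :=
        (hR.comm _ q'.out.2 _ z.2).resolve_left fun h' => h (hz.2 h')
      rw [mul_assoc, h3, Matrix.mul_neg, ← mul_assoc, h1, Matrix.neg_mul, neg_neg, mul_assoc]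
  have hc0nc : q.out * q'.out ∉ Subgroup.center R := fun h => hqq (by
    have h1 : (QuotientGroup.mk (q.out * q'.out) : R ⧸ Subgroup.center R) = 1 := (QuotientGroup.eq_one_iff _).2 h
    have h2' := mk_sq hR q'.out
    rw [QuotientGroup.mk_mul, QuotientGroup.out_eq', QuotientGroup.out_eq'] at h1
    rw [QuotientGroup.mk_mul, QuotientGroup.out_eq'] at h2'
    exact mul_right_cancel (h1.trans h2'.symm))
  set c0 := q.out * q'.out
  obtain ⟨d0, hd0⟩ := exists_anti hR hc0nc
  obtain ⟨c, hcc, cc, -, hc⟩ := exists_sq_one hR hi hie c0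
  have hca : mt c * mt a = mt a * mt c := by
    rw [hc, Matrix.smul_mul, hcomm2 a hsame.1, Matrix.mul_smul]
  have hcb : mt c * mt b = mt b * mt c := by
    rw [hc, Matrix.smul_mul, hcomm2 b hsame.2, Matrix.mul_smul]
  have hd0c : mt d0 * mt c = -(mt c * mt d0) := by
    rw [hc, Matrix.mul_smul, hd0, smul_neg, Matrix.smul_mul]
  -- correct `d` to commute with `a` and `b`
  have hfix : ∀ (x u v : R), mt u * mt v = -(mt v * mt u) → mt x * mt v = -(mt v * mt x) →
      mt (x * u) * mt v = mt v * mt (x * u) := by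
    intro x u v h h'
    rw [mt_mul, mul_assoc, h, Matrix.mul_neg, ← mul_assoc, h', Matrix.neg_mul, neg_neg, mul_assoc]
  have hkeep : ∀ (x u v : R), mt u * mt v = mt v * mt u → mt x * mt v = mt v * mt x →
      mt (x * u) * mt v = mt v * mt (x * u) := by
    intro x u v h h'
    rw [mt_mul, mul_assoc, h, ← mul_assoc, h', mul_assoc]
  have hkeep' : ∀ (x u v : R), mt u * mt v = mt v * mt u → mt x * mt v = -(mt v * mt x) →
      mt (x * u) * mt v = -(mt v * mt (x * u)) := by
    intro x u v h h'
    rw [mt_mul, mul_assoc, h, ← mul_assoc, h', Matrix.neg_mul, mul_assoc]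
  obtain ⟨d1, hd1a, hd1c⟩ : ∃ d1 : R, mt d1 * mt a = mt a * mt d1 ∧ mt d1 * mt c = -(mt c * mt d1) := by
    rcases hR.comm _ d0.2 _ a.2 with h | h
    · exact ⟨d0, h, hd0c⟩
    · exact ⟨d0 * b, hfix d0 b a hba h, hkeep' d0 b c hcb.symm hd0c⟩
  obtain ⟨d2, hd2a, hd2b, hd2c⟩ : ∃ d2 : R, mt d2 * mt a = mt a * mt d2 ∧ mt d2 * mt b = mt b * mt d2 ∧
      mt d2 * mt c = -(mt c * mt d2) := by
    rcases hR.comm _ d1.2 _ b.2 with h | h
    · exact ⟨d1, hd1a, h, hd1c⟩
    · exact ⟨d1 * a, hkeep d1 a a rfl hd1a, hfix d1 a b (hflip hba) h, hkeep' d1 a c hca.symm hd1c⟩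
  obtain ⟨d, hdd, cd, -, hd⟩ := exists_sq_one hR hi hie d2
  have hda : mt d * mt a = mt a * mt d := by rw [hd, Matrix.smul_mul, hd2a, Matrix.mul_smul]
  have hdb : mt d * mt b = mt b * mt d := by rw [hd, Matrix.smul_mul, hd2b, Matrix.mul_smul]
  have hdc : mt d * mt c = -(mt c * mt d) := by
    rw [hd, Matrix.smul_mul, hd2c, smul_neg, Matrix.mul_smul]
  -- sorting rules
  have hba' : ∀ X, mt b * (mt a * X) = -(mt a * (mt b * X)) := fun X => by
    rw [← mul_assoc, hba, Matrix.neg_mul, mul_assoc]
  have hca' : ∀ X, mt c * (mt a * X) = mt a * (mt c * X) := fun X => by rw [← mul_assoc, hca, mul_assoc]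
  have hcb' : ∀ X, mt c * (mt b * X) = mt b * (mt c * X) := fun X => by rw [← mul_assoc, hcb, mul_assoc]
  have hda' : ∀ X, mt d * (mt a * X) = mt a * (mt d * X) := fun X => by rw [← mul_assoc, hda, mul_assoc]
  have hdb' : ∀ X, mt d * (mt b * X) = mt b * (mt d * X) := fun X => by rw [← mul_assoc, hdb, mul_assoc]
  have hdc' : ∀ X, mt d * (mt c * X) = -(mt c * (mt d * X)) := fun X => by
    rw [← mul_assoc, hdc, Matrix.neg_mul, mul_assoc]
  have haa' : ∀ X, mt a * (mt a * X) = X := fun X => by rw [← mul_assoc, haa, one_mul]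
  have hbb' : ∀ X, mt b * (mt b * X) = X := fun X => by rw [← mul_assoc, hbb, one_mul]
  have hcc' : ∀ X, mt c * (mt c * X) = X := fun X => by rw [← mul_assoc, hcc, one_mul]
  have hdd' : ∀ X, mt d * (mt d * X) = X := fun X => by rw [← mul_assoc, hdd, one_mul]
  set g : Fin 5 → R := ![a, b, ie * (a * b * c), ie * (a * b * d), a * b * (c * d)] with hg
  refine ⟨g, ⟨fun k => ?_, fun k l hkl => ?_⟩, ?_⟩
  · fin_cases k <;> simp [hg, mt_mul, hie, mul_assoc, smul_smul, hi, haa, hbb, hcc, hdd, hba, hca, hcb, hda, hdb, hdc,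
      hba', hca', hcb', hda', hdb', hdc', haa', hbb', hcc', hdd']
  · fin_cases k <;> fin_cases l <;> first
      | exact absurd rfl hkl
      | simp [hg, mt_mul, hie, mul_assoc, smul_smul, hi, haa, hbb, hcc, hdd, hba, hca, hcb, hda, hdb, hdc,
          hba', hca', hcb', hda', hdb', hdc', haa', hbb', hcc', hdd']
  -- the lines of the five generate
  set K := Subgroup.closure (Set.range fun k => (QuotientGroup.mk (g k) : R ⧸ Subgroup.center R)) with hK
  set π : R →* R ⧸ Subgroup.center R := QuotientGroup.mk' _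
  have hie1 : π ie = 1 := (QuotientGroup.eq_one_iff _).2 (mem_center_of_scalar hR hie)
  have hmem : ∀ k, π (g k) ∈ K := fun k => Subgroup.subset_closure ⟨k, rfl⟩
  have haK : π a ∈ K := hmem 0
  have hbK : π b ∈ K := hmem 1
  have hcK : π c ∈ K := by
    have h := hmem 2
    simp only [hg, Matrix.cons_val] at h
    rw [map_mul, hie1, one_mul, map_mul, map_mul] at h
    simpa using (K.mul_mem_cancel_left (K.mul_mem haK hbK)).1 h
  have hdK : π d ∈ K := by
    have h := hmem 3
    simp only [hg, Matrix.cons_val] at h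
    rw [map_mul, hie1, one_mul, map_mul, map_mul] at h
    simpa using (K.mul_mem_cancel_left (K.mul_mem haK hbK)).1 h
  let Cz : R → Subgroup (R ⧸ Subgroup.center R) := fun x => (Subgroup.centralizer {x}).map π
  have hCz : ∀ {x y : R}, mt x * mt y = mt y * mt x → π y ∈ Cz x := fun {x y} h =>
    ⟨y, Subgroup.mem_centralizer_singleton_iff.2 (Subtype.ext (Units.ext h.symm)), rfl⟩
  have hnCz : ∀ {x y : R}, mt x * mt y = -(mt y * mt x) → π y ∉ Cz x := by
    rintro x y h ⟨z, hz, hzy⟩
    have hzx := Subgroup.mem_centralizer_singleton_iff.1 hz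
    have hcen : z⁻¹ * y ∈ Subgroup.center R := QuotientGroup.eq.1 hzy
    have hyx : y * x = x * y := by
      have e : y = z * (z⁻¹ * y) := by group
      rw [e, mul_assoc, ← Subgroup.mem_center_iff.1 hcen x, ← mul_assoc, hzx, mul_assoc]
    refine hanti_nc h (Subgroup.mem_center_iff.2 fun w => ?_)
    exfalso
    have h' : mt y * mt x = mt x * mt y := congrArg (fun w : R => mt w) hyx
    rw [h'] at h
    have : (2 : F) • (mt x * mt y) = 0 := by rw [two_smul]; exact eq_neg_iff_add_eq_zero.1 h
    exact ((x : GL ι F) * (y : GL ι F)).ne_zero ((smul_eq_zero.1 this).resolve_left h2)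
  have step : ∀ {A B : Subgroup (R ⧸ Subgroup.center R)} (x : R ⧸ Subgroup.center R), A ≤ B → x ∈ B → x ∉ A →
      2 * Nat.card A ≤ Nat.card B := by
    intro A B x hAB hx hxA
    obtain ⟨k, hk⟩ := Subgroup.card_dvd_of_le hAB
    rcases k with _ | _ | k
    · have := Nat.card_pos (α := B); omega
    · exact absurd (Subgroup.eq_of_le_of_card_ge hAB (by omega) ▸ hx) hxA
    · rw [hk, mul_comm 2]; exact Nat.mul_le_mul_left _ (by omega)
  set A1 := Subgroup.closure {π a}
  set A2 := Subgroup.closure {π a, π b}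
  set A3 := Subgroup.closure {π a, π b, π c}
  have s1 : 2 * Nat.card (⊥ : Subgroup (R ⧸ Subgroup.center R)) ≤ Nat.card A1 :=
    step (π a) bot_le (Subgroup.subset_closure rfl) fun h =>
      hanti_nc (hflip hba) ((QuotientGroup.eq_one_iff _).1 (Subgroup.mem_bot.1 h))
  have s2 : 2 * Nat.card A1 ≤ Nat.card A2 := by
    refine step (π b) (Subgroup.closure_mono (by intro z; simp +contextual))
      (Subgroup.subset_closure (by simp)) fun h => hnCz (hflip hba) (Subgroup.closure_le _ |>.2 ?_ h)
    rintro _ rfl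
    exact hCz rfl
  have s3 : 2 * Nat.card A2 ≤ Nat.card A3 := by
    refine step (π c) (Subgroup.closure_mono (by intro z; simp; tauto))
      (Subgroup.subset_closure (by simp)) fun h => hnCz hdc (Subgroup.closure_le _ |>.2 ?_ h)
    rintro _ (rfl | rfl)
    · exact hCz hda
    · exact hCz hdb
  have s4 : 2 * Nat.card A3 ≤ Nat.card K := by
    refine step (π d) ((Subgroup.closure_le _).2 ?_) hdK fun h => hnCz (hflip hdc) (Subgroup.closure_le _ |>.2 ?_ h)
    · rintro _ (rfl | rfl | rfl) <;> assumption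
    · rintro _ (rfl | rfl | rfl)
      · exact hCz hca
      · exact hCz hcb
      · exact hCz rfl
  rw [Subgroup.card_bot] at s1
  refine Subgroup.eq_top_of_le_card _ ?_
  rw [h16]
  omega

end CfsgLib.PauliFour
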