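import Cfsg.Agent.Lib.SmallDim.Pauli
import Cfsg.Agent.Lib.ClassK.SymplecticExp4

/-!
The sixteen lines of a Pauli group in dimension four and the permutation of them induced by an
element of the normaliser.
-/

set_option autoImplicit false
set_option linter.unusedSectionVars false
set_option linter.style.haveILetI false

namespace CfsgLib.PauliFour

open scoped Matrix
open Cfsg.Geo CfsgLib.SmallDim

variable {F : Type*} [Field F] {ι : Type} [Fintype ι] [DecidableEq ι] {R : Subgroup (GL ι F)}

/-- A symplectic type 2-group of exponent 4 acting absolutely irreducibly is a Pauli group. -/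
theorem isPauli_of_sympType [Finite F] (hn : 1 < Fintype.card ι) (hRs : IsSymplecticTypeGroup 2 R)
    (hRi : ActsAbsolutelyIrreducibly (matrixSet R)) : IsPauli R := by
  haveI : Nonempty ι := Fintype.card_pos_iff.1 (by omega)
  haveI : Fact (Nat.Prime 2) := ⟨Nat.prime_two⟩
  have hspan := span_eq_top_of_absIrred hRi
  haveI : Nontrivial R := by
    by_contra hne
    rw [not_nontrivial_iff_subsingleton] at hne
    have := hRs.exponent_eq
    rw [Monoid.exp_eq_one_iff.2 hne] at this
    norm_num at this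
  haveI := hRs.pGroup.center_nontrivial
  obtain ⟨z, hz⟩ := exists_prime_orderOf_dvd_card' 2 (G := Subgroup.center R) (by
    obtain ⟨k, hk0, hk⟩ := (hRs.pGroup.to_subgroup (Subgroup.center R)).nontrivial_iff_card.1 inferInstance
    rw [hk]; exact dvd_pow_self 2 (by omega))
  have hz2 : (z : R) * (z : R) = 1 := by
    have hp : z ^ 2 = 1 := hz ▸ pow_orderOf_eq_one z
    have := congrArg Subtype.val hp
    rw [← sq]; simpa using this
  have hz1 : (z : R) ≠ 1 := fun h => by
    rw [show z = 1 from Subtype.ext h, orderOf_one] at hz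
    norm_num at hz
  have hscal : ∀ w ∈ Subgroup.center R, ∃ c : F, ((w : GL ι F) : Matrix ι ι F) = c • 1 := fun w hw =>
    hRi.2 _ (by
      rintro _ ⟨g, hg, rfl⟩
      exact congrArg (fun x : R => ((x : GL ι F) : Matrix ι ι F)) (Subgroup.mem_center_iff.1 hw ⟨g, hg⟩).symm)
  have hzval : (((z : R) : GL ι F) : Matrix ι ι F) = -1 := by
    obtain ⟨i⟩ := ‹Nonempty ι›
    obtain ⟨c, hc⟩ := hscal _ z.2
    have h := congrArg (fun x : R => ((x : GL ι F) : Matrix ι ι F)) hz2
    simp only [Subgroup.coe_mul, Units.val_mul, OneMemClass.coe_one, Units.val_one, hc, Matrix.smul_mul,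
      one_mul, smul_smul] at h
    have hc2 : c * c = 1 := by simpa using congrFun (congrFun h i) i
    rcases mul_self_eq_one_iff.1 hc2 with h1 | h1
    · exact absurd (Subtype.ext (Units.ext (show _ = (1 : Matrix ι ι F) by rw [hc, h1, one_smul]))) hz1
    · rw [hc, h1, neg_one_smul]
  have hT : Cfsg.IsOfSymplecticType R := ⟨hRs.pGroup, fun A hA hA' => hRs.cyclic_of_characteristic A hA hA'⟩
  have h4 : ∀ x : R, x ^ 4 = 1 := fun x => by
    have h := Monoid.pow_exponent_eq_one x
    rw [hRs.exponent_eq] at h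
    simpa using h
  have hsq := CfsgLib.ClassK.symplectic_exp_four_sq hT h4 z.2 hz2 hz1
  have hco := CfsgLib.ClassK.symplectic_exp_four_comm hT h4 z.2 hz2 hz1
  refine ⟨fun x hx => ?_, fun x hx y hy => ?_, hspan⟩
  · rcases hsq ⟨x, hx⟩ with h | h
    · exact Or.inl (by simpa using congrArg (fun w : R => ((w : GL ι F) : Matrix ι ι F)) h)
    · exact Or.inr (by simpa [hzval] using congrArg (fun w : R => ((w : GL ι F) : Matrix ι ι F)) h)
  · rcases hco ⟨x, hx⟩ ⟨y, hy⟩ with h | h
    · left
      have h' : (⟨x, hx⟩ : R) * ⟨y, hy⟩ = ⟨y, hy⟩ * ⟨x, hx⟩ := by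
        calc (⟨x, hx⟩ : R) * ⟨y, hy⟩
            = (⟨x, hx⟩ * ⟨y, hy⟩ * (⟨x, hx⟩ : R)⁻¹ * (⟨y, hy⟩ : R)⁻¹) * (⟨y, hy⟩ * ⟨x, hx⟩) := by group
          _ = _ := by rw [h, one_mul]
      simpa using congrArg (fun w : R => ((w : GL ι F) : Matrix ι ι F)) h'
    · right
      have h' : (⟨x, hx⟩ : R) * ⟨y, hy⟩ = (z : R) * (⟨y, hy⟩ * ⟨x, hx⟩) := by
        rw [← h]; group
      simpa [hzval] using congrArg (fun w : R => ((w : GL ι F) : Matrix ι ι F)) h'

section Lines

variable (R) in
/-- A representative matrix of a line. -/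
noncomputable def rep (q : R ⧸ Subgroup.center R) : Matrix ι ι F := ((q.out : R) : GL ι F)

variable (hR : IsPauli R)
include hR

theorem eq_smul_rep [Nonempty ι] (x : R) :
    ∃ c : F, c ≠ 0 ∧ ((x : GL ι F) : Matrix ι ι F) = c • rep R (QuotientGroup.mk x) := by
  set q : R ⧸ Subgroup.center R := QuotientGroup.mk x
  have hz : q.out⁻¹ * x ∈ Subgroup.center R := QuotientGroup.eq.1 (QuotientGroup.out_eq' q)
  obtain ⟨c, hc⟩ := hR.centraliser_scalar (M := (((q.out⁻¹ * x : R) : GL ι F) : Matrix ι ι F)) (by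
    rintro _ ⟨y, hy, rfl⟩
    exact congrArg (fun w : R => ((w : GL ι F) : Matrix ι ι F)) (Subgroup.mem_center_iff.1 hz ⟨y, hy⟩).symm)
  refine ⟨c, fun h0 => ?_, ?_⟩
  · rw [h0, zero_smul] at hc
    exact (((q.out⁻¹ * x : R) : GL ι F)).ne_zero hc
  · have : x = q.out * (q.out⁻¹ * x) := by group
    calc ((x : GL ι F) : Matrix ι ι F) = rep R q * (((q.out⁻¹ * x : R) : GL ι F) : Matrix ι ι F) := by
          conv_lhs => rw [this]
          simp [rep]
      _ = c • rep R q := by rw [hc, Matrix.mul_smul, mul_one]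

theorem linearIndependent_rep [Finite F] (h2 : (2 : F) ≠ 0) (hne : (Fintype.card ι : F) ≠ 0) :
    LinearIndependent F (rep R) := by
  classical
  haveI : Fintype (R ⧸ Subgroup.center R) := Fintype.ofFinite _
  rw [Fintype.linearIndependent_iff]
  intro g hg q
  have hout : ∀ p, p ≠ q → Matrix.trace (rep R p * ((((q.out : R) : GL ι F)⁻¹ : GL ι F) : Matrix ι ι F)) = 0 := by
    intro p hpq
    have : p.out * (q.out)⁻¹ ∉ Subgroup.center R := by
      intro hc
      apply hpq
      rw [← QuotientGroup.out_eq' p, ← QuotientGroup.out_eq' q, QuotientGroup.eq]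
      have hc' := (inferInstance : (Subgroup.center R).Normal).conj_mem' _ hc p.out
      simpa [mul_assoc] using (Subgroup.center R).inv_mem hc'
    simpa [rep] using hR.trace_eq_zero h2 this
  have h := congrArg (fun X : Matrix ι ι F => Matrix.trace (X * ((((q.out : R) : GL ι F)⁻¹ : GL ι F) : Matrix ι ι F))) hg
  simp only [Matrix.sum_mul, Matrix.trace_sum, Matrix.smul_mul, Matrix.trace_smul, Matrix.zero_mul,
    Matrix.trace_zero, smul_eq_mul] at h
  rw [Finset.sum_eq_single q (fun p _ hp => by rw [hout p hp, mul_zero]) (by simp)] at h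
  simp only [rep, Units.mul_inv, Matrix.trace_one] at h
  exact (mul_eq_zero.1 h).resolve_right hne

theorem span_rep [Nonempty ι] : ⊤ ≤ Submodule.span F (Set.range (rep R)) := by
  rw [← hR.span, Submodule.span_le]
  rintro _ ⟨x, hx, rfl⟩
  obtain ⟨c, -, hc⟩ := eq_smul_rep hR ⟨x, hx⟩
  show (x : Matrix ι ι F) ∈ _
  rw [show (x : Matrix ι ι F) = _ from hc]
  exact Submodule.smul_mem _ _ (Submodule.subset_span ⟨_, rfl⟩)

/-- The basis of the matrix algebra given by the lines. -/
noncomputable def repBasis [Nonempty ι] [Finite F] (h2 : (2 : F) ≠ 0) (hne : (Fintype.card ι : F) ≠ 0) :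
    Module.Basis (R ⧸ Subgroup.center R) F (Matrix ι ι F) :=
  Module.Basis.mk (linearIndependent_rep hR h2 hne) (span_rep hR)

theorem card_lines [Nonempty ι] [Finite F] (h2 : (2 : F) ≠ 0) (hne : (Fintype.card ι : F) ≠ 0) :
    Nat.card (R ⧸ Subgroup.center R) = Fintype.card ι * Fintype.card ι := by
  haveI : Fintype (R ⧸ Subgroup.center R) := Fintype.ofFinite _
  rw [Nat.card_eq_fintype_card, ← Module.finrank_eq_card_basis (repBasis hR h2 hne), Module.finrank_matrix,
    Module.finrank_self, mul_one]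

theorem rep_sq [Nonempty ι] (q : R ⧸ Subgroup.center R) :
    ∃ e : F, e ≠ 0 ∧ rep R q * rep R q = e • 1 := by
  rcases hR.sq _ q.out.2 with h | h
  · exact ⟨1, one_ne_zero, by rw [one_smul]; exact h⟩
  · exact ⟨-1, neg_ne_zero.2 one_ne_zero, by rw [neg_one_smul]; exact h⟩

end Lines

section Action

/-- Conjugation by an element of the normaliser, on the group. -/
def conjR {y : GL ι F} (hy : y ∈ Subgroup.normalizer (R : Set (GL ι F))) : R ≃* R where
  toFun x := ⟨y * x * y⁻¹, (Subgroup.mem_normalizer_iff.1 hy x).1 x.2⟩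
  invFun x := ⟨y⁻¹ * x * y, by
    have := (Subgroup.mem_normalizer_iff.1 (inv_mem hy) x).1 x.2
    simpa using this⟩
  left_inv x := Subtype.ext (by simp [mul_assoc])
  right_inv x := Subtype.ext (by simp [mul_assoc])
  map_mul' a b := Subtype.ext (by simp [mul_assoc])

theorem map_center_conjR {y : GL ι F} (hy : y ∈ Subgroup.normalizer (R : Set (GL ι F))) :
    (Subgroup.center R).map (conjR hy).toMonoidHom = Subgroup.center R :=
  Subgroup.characteristic_iff_map_eq.1 inferInstance _

/-- The induced permutation of the lines. -/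
noncomputable def lineMap {y : GL ι F} (hy : y ∈ Subgroup.normalizer (R : Set (GL ι F))) :
    MulAut (R ⧸ Subgroup.center R) :=
  QuotientGroup.congr _ _ (conjR hy) (map_center_conjR hy)

theorem lineMap_mk {y : GL ι F} (hy : y ∈ Subgroup.normalizer (R : Set (GL ι F))) (x : R) :
    lineMap hy (QuotientGroup.mk x) = QuotientGroup.mk (conjR hy x) := rfl

theorem lineMap_pow {y : GL ι F} (hy : y ∈ Subgroup.normalizer (R : Set (GL ι F))) (k : ℕ) (x : R) :
    (lineMap hy ^ k) (QuotientGroup.mk x) =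
      QuotientGroup.mk (⟨y ^ k * x * (y ^ k)⁻¹,
        (Subgroup.mem_normalizer_iff.1 (pow_mem hy k) x).1 x.2⟩ : R) := by
  induction k with
  | zero => simp
  | succ k ih =>
    rw [pow_succ', MulAut.mul_apply, ih, lineMap_mk]
    congr 1
    refine Subtype.ext ?_
    simp [conjR, pow_succ', mul_assoc]

end Action

end CfsgLib.PauliFour
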