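import Cfsg.Agent.Lib.PauliFour.Derange4

/-!
Scalars and determinants of a Pauli group with centre of order four in dimension four.
-/

set_option autoImplicit false
set_option linter.unusedSectionVars false
set_option linter.style.haveILetI false

namespace CfsgLib.PauliFour

open scoped Matrix
open Cfsg.Geo CfsgLib.SmallDim Polynomial

variable {F : Type*} [Field F] [Finite F] {R : Subgroup (GL (Fin 4) F)}

local notation "M₄" => Matrix (Fin 4) (Fin 4) F

theorem natCast_two_four (h2 : (2 : F) ≠ 0) : ∀ k : ℕ, k = 2 ∨ k = 4 → (k : F) ≠ 0 := by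
  rintro k (rfl | rfl)
  · exact_mod_cast h2
  · have : ((4 : ℕ) : F) = 2 * 2 := by push_cast; norm_num
    rw [this]; exact mul_ne_zero h2 h2

theorem scalar_of_center (hR : IsPauli R) {z : R} (hz : z ∈ Subgroup.center R) :
    ∃ c : F, mt z = c • 1 ∧ c ^ 4 = 1 := by
  obtain ⟨c, hc⟩ := hR.centraliser_scalar (M := mt z) (by
    rintro _ ⟨w, hw, rfl⟩
    exact congrArg (fun u : R => mt u) (Subgroup.mem_center_iff.1 hz ⟨w, hw⟩).symm)
  refine ⟨c, hc, ?_⟩
  have h := hR.sq _ z.2
  change mt z * mt z = 1 ∨ mt z * mt z = -1 at h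
  rw [hc, Matrix.smul_mul, one_mul, smul_smul] at h
  rcases h with h | h <;> have e := congrFun (congrFun h 0) 0 <;> simp at e
  · rw [show c ^ 4 = (c * c) * (c * c) by ring, e, one_mul]
  · rw [show c ^ 4 = (c * c) * (c * c) by ring, e, neg_one_mul, neg_neg]

/-- The scalars of order dividing four lie in the group. -/
theorem scalars_of_card_center (hR : IsPauli R) (hZ : Nat.card (Subgroup.center R) = 4) :
    (∀ c : F, c ^ 4 = 1 → ∃ x : R, mt x = c • 1) ∧ ∃ i : F, i * i = -1 := by
  classical
  choose f hf hf4 using fun z : Subgroup.center R => scalar_of_center hR z.2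
  have hinj : Function.Injective f := fun a b hab =>
    Subtype.ext (Subtype.ext (Units.ext (show mt (a : R) = mt (b : R) by rw [hf, hf, hab])))
  haveI : Fintype (Subgroup.center R) := Fintype.ofFinite _
  set S : Finset F := (nthRoots 4 (1 : F)).toFinset
  have hmem : ∀ c, c ∈ S ↔ c ^ 4 = 1 := fun c => by simp [S, mem_nthRoots]
  have hsub : Finset.univ.image f ⊆ S := fun c hc => by
    obtain ⟨z, -, rfl⟩ := Finset.mem_image.1 hc
    exact (hmem _).2 (hf4 z)
  have h4 : (Finset.univ.image f).card = 4 := by
    rw [Finset.card_image_of_injective _ hinj, Finset.card_univ, ← Nat.card_eq_fintype_card, hZ]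
  have heq : Finset.univ.image f = S := Finset.eq_of_subset_of_card_le hsub (by
    rw [h4]; exact (Multiset.toFinset_card_le _).trans (card_nthRoots 4 1))
  refine ⟨fun c hc => ?_, ?_⟩
  · have : c ∈ Finset.univ.image f := heq ▸ (hmem c).2 hc
    obtain ⟨z, -, rfl⟩ := Finset.mem_image.1 this
    exact ⟨z, hf z⟩
  · by_contra! hno
    have : Finset.univ.image f ⊆ ({1, -1} : Finset F) := fun c hc => by
      have h := (hmem c).1 (hsub hc)
      have h' : (c * c - 1) * (c * c + 1) = 0 := by linear_combination h
      rcases mul_eq_zero.1 h' with h' | h'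
      · rcases mul_self_eq_one_iff.1 (sub_eq_zero.1 h') with e | e <;> simp [e]
      · exact absurd (eq_neg_of_add_eq_zero_left h') (hno c)
    have hle := (Finset.card_le_card this).trans (Finset.card_le_two)
    omega

/-- The group consists of matrices of determinant one. -/
theorem det_of_mem (hR : IsPauli R) (h2 : (2 : F) ≠ 0) (x : R) : (mt x).det = 1 := by
  by_cases hx : x ∈ Subgroup.center R
  · obtain ⟨c, hc, hc4⟩ := scalar_of_center hR hx
    rw [hc, Matrix.det_smul, Matrix.det_one, mul_one, Fintype.card_fin, hc4]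
  · have ht : Matrix.trace (mt x) = 0 := hR.trace_eq_zero h2 hx
    rcases hR.sq _ x.2 with h | h
    · rw [det_of_sq_trace_zero (natCast_two_four h2) (x := (x : GL (Fin 4) F)) (z := 1) (by rw [one_smul]; exact h)
        ht, one_mul]
    · rw [det_of_sq_trace_zero (natCast_two_four h2) (x := (x : GL (Fin 4) F)) (z := -1)
        (by rw [neg_one_smul]; exact h) ht, neg_one_mul, neg_neg]

/-- Membership in a product of linear factors. -/
theorem mem_of_eval_prod {L : Type*} [Field L] {m : Multiset L} {a : L} :
    (m.map fun b => X - C b).prod.eval a = 0 ↔ a ∈ m := by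
  rw [← IsRoot.def, ← mem_roots (Monic.ne_zero (monic_multiset_prod_of_monic _ _ fun b _ => monic_X_sub_C b)),
    roots_multiset_prod_X_sub_C]

theorem eval_frobenius {L : Type*} [Field L] [Algebra F L] (p : ℕ) [Fact p.Prime] [CharP L p] (χ : F[X])
    (σ : F →+* F) (hσ : ∀ c, σ c = c ^ p) (a : L) :
    ((χ.map σ).map (algebraMap F L)).eval (a ^ p) = ((χ.map (algebraMap F L)).eval a) ^ p := by
  rw [eval_map, eval_map, eval₂_map, ← frobenius_def, ← frobenius_def, hom_eval₂]
  congr 1
  exact RingHom.ext fun c => by simp [hσ, frobenius_def, map_pow]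

theorem frobenius_sum {L : Type*} [Field L] (p : ℕ) [Fact p.Prime] [CharP L p] (m : Multiset L) :
    m.sum ^ p = (m.map fun a => a ^ p).sum := by
  rw [← frobenius_def, map_multiset_sum]; rfl

end CfsgLib.PauliFour
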