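import Cfsg.Agent.Lib.PauliFour.Symp
import Cfsg.Agent.Lib.PauliFour.Cycle

/-!
The five anticommuting self-adjoint involutions of a Pauli group in `Sp_4` and the element of order five
permuting them.
-/

set_option autoImplicit false
set_option linter.unusedSectionVars false
set_option linter.style.haveILetI false

namespace CfsgLib.PauliFour

open scoped Matrix
open Cfsg.Geo CfsgLib.SmallDim

variable {F : Type*} [Field F]

local notation "J₄" => Matrix.J (Fin 2) F
local notation "M₄" => Matrix (Fin 2 ⊕ Fin 2) (Fin 2 ⊕ Fin 2) F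
local notation "B₄" => Cfsg.sympForm 2 F

theorem sympForm_adj (M : M₄) (u v : Fin 2 ⊕ Fin 2 → F) : B₄ (M *ᵥ u) v = B₄ u (adj M *ᵥ v) := by
  simp only [Cfsg.sympForm]
  rw [Matrix.mulVec_mulVec, show J₄ * adj M = Mᵀ * J₄ by
    rw [adj, Matrix.mul_neg, ← mul_assoc, ← mul_assoc, Matrix.J_squared]; simp]
  rw [← Matrix.mulVec_mulVec, Matrix.dotProduct_mulVec (A := Mᵀ), Matrix.vecMul_transpose]

theorem sympForm_self (v : Fin 2 ⊕ Fin 2 → F) : B₄ v v = 0 := by
  simp [Cfsg.sympForm, Matrix.J, dotProduct, Matrix.mulVec, Fintype.sum_sum_type, Matrix.fromBlocks,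
    Matrix.one_apply, Fin.sum_univ_two]
  ring

theorem eq_zero_of_sympForm (v : Fin 2 ⊕ Fin 2 → F) (h : ∀ w, B₄ v w = 0) : v = 0 := by
  funext i
  rcases i with i | i
  · have := h (Pi.single (.inr i) 1)
    fin_cases i <;> simpa [Cfsg.sympForm, Matrix.J, dotProduct, Matrix.mulVec, Fintype.sum_sum_type,
      Matrix.fromBlocks, Matrix.one_apply, Fin.sum_univ_two] using this
  · have := h (Pi.single (.inl i) 1)
    fin_cases i <;> simpa [Cfsg.sympForm, Matrix.J, dotProduct, Matrix.mulVec, Fintype.sum_sum_type,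
      Matrix.fromBlocks, Matrix.one_apply, Fin.sum_univ_two] using this

/-- A non-zero self-adjoint idempotent has rank at least two. -/
theorem two_le_rank_of_selfAdj_idem {e : M₄} (he : e * e = e) (ha : adj e = e) (h0 : e ≠ 0) :
    2 ≤ Module.finrank F (LinearMap.range (Matrix.toLin' e)) := by
  obtain ⟨v, hv⟩ : ∃ v, e *ᵥ v ≠ 0 := by
    by_contra! h
    exact h0 (Matrix.toLin'.injective (LinearMap.ext fun v => by simp [h v]))
  obtain ⟨w, hw⟩ : ∃ w, B₄ (e *ᵥ v) w ≠ 0 := by
    by_contra! h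
    exact hv (eq_zero_of_sympForm _ h)
  have hw' : B₄ (e *ᵥ v) (e *ᵥ w) ≠ 0 := by
    have h1 : B₄ (e *ᵥ v) (e *ᵥ w) = B₄ (e *ᵥ v) w := by
      rw [sympForm_adj, ha, Matrix.mulVec_mulVec, he, ← ha, ← sympForm_adj, ha]
    rwa [h1]
  by_contra hlt
  push Not at hlt
  have hpos : 0 < Module.finrank F (LinearMap.range (Matrix.toLin' e)) :=
    Module.finrank_pos_iff_exists_ne_zero.2 ⟨⟨_, v, rfl⟩, fun h => hv (congrArg Subtype.val h)⟩
  obtain ⟨c, hc⟩ := exists_smul_eq_of_finrank_eq_one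
    (show Module.finrank F (LinearMap.range (Matrix.toLin' e)) = 1 by omega)
    (x := (⟨e *ᵥ v, v, rfl⟩ : LinearMap.range (Matrix.toLin' e))) (fun h => hv (congrArg Subtype.val h))
    (⟨e *ᵥ w, w, rfl⟩ : LinearMap.range (Matrix.toLin' e))
  apply hw'
  rw [show e *ᵥ w = c • (e *ᵥ v) from (congrArg Subtype.val hc).symm]
  have := sympForm_self (e *ᵥ v)
  simp only [Cfsg.sympForm, Matrix.mulVec_smul, dotProduct_smul, smul_eq_mul] at this ⊢
  rw [this, mul_zero]

variable [Finite F] {R : Subgroup (GL (Fin 2 ⊕ Fin 2) F)}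

/-- Two distinct non-trivial self-adjoint lines anticommute. -/
theorem selfAdj_anti (hR : IsPauli R) (hRf : R ≤ Cfsg.spGL 2 F) (h2 : (2 : F) ≠ 0)
    {q q' : R ⧸ Subgroup.center R} (hq : q ∈ selfAdjLines R) (hq' : q' ∈ selfAdjLines R) (hne : q ≠ q') :
    rep R q * rep R q' = -(rep R q' * rep R q) := by
  refine (hR.comm _ q.out.2 _ q'.out.2).resolve_left fun hcomm => ?_
  set a := rep R q with ha_def
  set b := rep R q' with hb_def
  have hab : a * b = b * a := hcomm
  have hnot : ∀ p, p ∈ selfAdjLines R → Matrix.trace (rep R p) = 0 := fun p hp =>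
    hR.trace_eq_zero h2 (z := p.out) fun h => hp.1 (by
      rw [← QuotientGroup.out_eq' p]; exact (QuotientGroup.eq_one_iff _).2 h)
  have htab : Matrix.trace (a * b) = 0 := by
    have := hR.trace_eq_zero h2 (z := q.out * q'.out) fun h => hne (by
      have hinv : q'.out * q'.out ∈ Subgroup.center R := by
        rw [Subgroup.mem_center_iff]
        intro u
        rcases hR.sq _ q'.out.2 with hs | hs <;>
          exact Subtype.ext (Units.ext (by simp [hs]))
      rw [← QuotientGroup.out_eq' q, ← QuotientGroup.out_eq' q', QuotientGroup.eq]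
      have hc : (q.out)⁻¹ * q'.out = ((q.out * q'.out)⁻¹) * (q'.out * q'.out) := by
        have hcR : q.out * q'.out = q'.out * q.out := Subtype.ext (Units.ext hcomm)
        rw [hcR]; group
      rw [hc]
      exact (Subgroup.center R).mul_mem ((Subgroup.center R).inv_mem h) hinv)
    simpa [rep, a, b] using this
  have hasq : a * a = 1 := by
    rcases adj_rep hR hRf q with h | h
    · exact h.1
    · exfalso
      have h' : (2 : F) • a = 0 := by
        have e := h.2.symm.trans hq.2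
        rw [two_smul]
        exact neg_eq_iff_add_eq_zero.1 e
      exact (((q.out : R) : GL (Fin 2 ⊕ Fin 2) F)).ne_zero
        (show (((q.out : R) : GL (Fin 2 ⊕ Fin 2) F) : M₄) = 0 from (smul_eq_zero.1 h').resolve_left h2)
  have hbsq : b * b = 1 := by
    rcases adj_rep hR hRf q' with h | h
    · exact h.1
    · exfalso
      have h' : (2 : F) • b = 0 := by
        have e := h.2.symm.trans hq'.2
        rw [two_smul]
        exact neg_eq_iff_add_eq_zero.1 e
      exact (((q'.out : R) : GL (Fin 2 ⊕ Fin 2) F)).ne_zero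
        (show (((q'.out : R) : GL (Fin 2 ⊕ Fin 2) F) : M₄) = 0 from (smul_eq_zero.1 h').resolve_left h2)
  -- the joint eigen-projections
  set e : M₄ := (2 : F)⁻¹ • (1 + a) with he_def
  set f : M₄ := (2 : F)⁻¹ • (1 + b) with hf_def
  have h22 : (2 : F)⁻¹ * (2 : F)⁻¹ * 2 = (2 : F)⁻¹ := by field_simp
  have hidem : ∀ M : M₄, M * M = 1 →
      ((2 : F)⁻¹ • (1 + M)) * ((2 : F)⁻¹ • (1 + M)) = (2 : F)⁻¹ • (1 + M) := fun M hM => by
    have h : (1 + M) * (1 + M) = (2 : F) • (1 + M) := by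
      rw [Matrix.add_mul, Matrix.mul_add, Matrix.mul_add, hM, two_smul, one_mul, one_mul, mul_one]; abel
    rw [Matrix.smul_mul, Matrix.mul_smul, smul_smul, h, smul_smul, h22]
  have hee : e * e = e := hidem a hasq
  have hff : f * f = f := hidem b hbsq
  have hef : e * f = f * e := by
    simp only [e, f, Matrix.smul_mul, Matrix.mul_smul, Matrix.add_mul, Matrix.mul_add, one_mul, mul_one, hab]
    rw [← smul_add, ← smul_add]; congr 2; abel
  have hadje : adj e = e := by
    rw [he_def, adj_smul, show (1 : M₄) + a = 1 - ((-1 : F) • a) by simp, adj_sub, adj_one, adj_smul, hq.2]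
  have hadjf : adj f = f := by
    rw [hf_def, adj_smul, show (1 : M₄) + b = 1 - ((-1 : F) • b) by simp, adj_sub, adj_one, adj_smul, hq'.2]
  have h4 : (4 : F) ≠ 0 := by rw [show (4 : F) = 2 * 2 by norm_num]; exact mul_ne_zero h2 h2
  have htr4 : Matrix.trace (1 : M₄) = (4 : F) := by rw [Matrix.trace_one]; simp
  have hta : Matrix.trace a = 0 := hnot q hq
  have htb : Matrix.trace b = 0 := hnot q' hq'
  have hte : Matrix.trace e = 2 := by
    rw [he_def, Matrix.trace_smul, Matrix.trace_add, htr4, hta, add_zero, smul_eq_mul]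
    field_simp; norm_num
  have htf : Matrix.trace f = 2 := by
    rw [hf_def, Matrix.trace_smul, Matrix.trace_add, htr4, htb, add_zero, smul_eq_mul]
    field_simp; norm_num
  have htef : Matrix.trace (e * f) = 1 := by
    simp only [e, f, Matrix.smul_mul, Matrix.mul_smul, Matrix.add_mul, Matrix.mul_add, one_mul, mul_one,
      Matrix.trace_smul, Matrix.trace_add, smul_eq_mul, htr4, hta, htb, htab, add_zero]
    field_simp; norm_num
  have h1 : (1 : F) ≠ 0 := one_ne_zero
  have c₁ : e * (e * f) = e * f := by rw [← mul_assoc, hee]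
  have c₂ : f * (e * f) = e * f := by rw [hef, ← mul_assoc, hff]
  have c₃ : (e * f) * e = e * f := by rw [hef, mul_assoc, hee]
  have c₄ : (e * f) * f = e * f := by rw [mul_assoc, hff]
  have c₅ : (e * f) * (e * f) = e * f := by rw [mul_assoc, c₂, c₁]
  have c₆ : f * e = e * f := hef.symm
  have i₁ : (e * f) * (e * f) = (e * f) := c₅
  have i₂ : (e - e * f) * (e - e * f) = (e - e * f) := by simp only [Matrix.sub_mul, Matrix.mul_sub, hee, c₁, c₃, c₅]; abel
  have i₃ : (f - e * f) * (f - e * f) = (f - e * f) := by simp only [Matrix.sub_mul, Matrix.mul_sub, hff, c₂, c₄, c₅]; abel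
  have o₁₂ : (e * f) * (e - e * f) = 0 := by simp only [Matrix.mul_sub, c₃, c₅, sub_self]
  have o₁₃ : (e * f) * (f - e * f) = 0 := by simp only [Matrix.mul_sub, c₄, c₅, sub_self]
  have o₂₁ : (e - e * f) * (e * f) = 0 := by simp only [Matrix.sub_mul, c₁, c₅, sub_self]
  have o₂₃ : (e - e * f) * (f - e * f) = 0 := by simp only [Matrix.sub_mul, Matrix.mul_sub, c₁, c₄, c₅]; abel
  have o₃₁ : (f - e * f) * (e * f) = 0 := by simp only [Matrix.sub_mul, c₂, c₅, sub_self]
  have o₃₂ : (f - e * f) * (e - e * f) = 0 := by simp only [Matrix.sub_mul, Matrix.mul_sub, c₆, c₂, c₃, c₅]; abel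
  have a₁ : adj (e * f) = (e * f) := by rw [adj_mul, hadje, hadjf, hef]
  have a₂ : adj (e - e * f) = (e - e * f) := by rw [adj_sub, hadje, a₁]
  have a₃ : adj (f - e * f) = (f - e * f) := by rw [adj_sub, hadjf, a₁]
  have n₁ : (e * f) ≠ 0 := fun h => h1 (by rw [← htef, h, Matrix.trace_zero])
  have n₂ : (e - e * f) ≠ 0 := fun h => h1 (by
    have := congrArg Matrix.trace h
    rw [Matrix.trace_sub, hte, htef, Matrix.trace_zero] at this
    linear_combination this)
  have n₃ : (f - e * f) ≠ 0 := fun h => h1 (by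
    have := congrArg Matrix.trace h
    rw [Matrix.trace_sub, htf, htef, Matrix.trace_zero] at this
    linear_combination this)
  let L : (LinearMap.range (Matrix.toLin' (e * f)) × LinearMap.range (Matrix.toLin' (e - e * f))) ×
      LinearMap.range (Matrix.toLin' (f - e * f)) →ₗ[F] (Fin 2 ⊕ Fin 2 → F) :=
    ((LinearMap.range (Matrix.toLin' (e * f))).subtype.coprod
      (LinearMap.range (Matrix.toLin' (e - e * f))).subtype).coprod (LinearMap.range (Matrix.toLin' (f - e * f))).subtype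
  have hL : Function.Injective L := by
    rw [injective_iff_map_eq_zero]
    rintro ⟨⟨⟨_, u, rfl⟩, ⟨_, v, rfl⟩⟩, ⟨_, w, rfl⟩⟩ h
    simp only [L, LinearMap.coprod_apply, Submodule.coe_subtype, Matrix.toLin'_apply] at h
    have g₁ := congrArg (fun z => (e * f) *ᵥ z) h
    have g₂ := congrArg (fun z => (e - e * f) *ᵥ z) h
    have g₃ := congrArg (fun z => (f - e * f) *ᵥ z) h
    simp only [Matrix.mulVec_add, Matrix.mulVec_mulVec, i₁, i₂, i₃, o₁₂, o₁₃, o₂₁, o₂₃, o₃₁, o₃₂,
      Matrix.zero_mulVec, Matrix.mulVec_zero, add_zero, zero_add] at g₁ g₂ g₃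
    exact Prod.ext (Prod.ext (Subtype.ext g₁) (Subtype.ext g₂)) (Subtype.ext g₃)
  have hle := LinearMap.finrank_le_finrank_of_injective hL
  rw [Module.finrank_prod, Module.finrank_prod, Module.finrank_fintype_fun_eq_card] at hle
  have r₁ := two_le_rank_of_selfAdj_idem i₁ a₁ n₁
  have r₂ := two_le_rank_of_selfAdj_idem i₂ a₂ n₂
  have r₃ := two_le_rank_of_selfAdj_idem i₃ a₃ n₃
  simp only [Fintype.card_sum, Fintype.card_fin] at hle
  omega

/-- The five involutions. -/
theorem exists_frame (hR : IsPauli R) (hRf : R ≤ Cfsg.spGL 2 F) (h2 : (2 : F) ≠ 0) :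
    ∃ q : Fin 5 → R ⧸ Subgroup.center R, Anti (fun i => rep R (q i)) ∧ (∀ i, adj (rep R (q i)) = rep R (q i)) ∧
      Subgroup.closure (Set.range q) = ⊤ := by
  classical
  have hS := ncard_selfAdjLines hR hRf h2
  let e : Fin 5 ≃ selfAdjLines R := (Finite.equivFinOfCardEq hS).symm
  set q : Fin 5 → R ⧸ Subgroup.center R := fun i => (e i).1
  have hmem : ∀ i, q i ∈ selfAdjLines R := fun i => (e i).2
  have hinj : Function.Injective q := Subtype.val_injective.comp e.injective
  have hsq : ∀ i, rep R (q i) * rep R (q i) = 1 := fun i => by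
    rcases adj_rep hR hRf (q i) with h | h
    · exact h.1
    · exfalso
      have h' : (2 : F) • rep R (q i) = 0 := by
        rw [two_smul]; exact neg_eq_iff_add_eq_zero.1 (h.2.symm.trans (hmem i).2)
      exact (((q i).out : R) : GL (Fin 2 ⊕ Fin 2) F).ne_zero
        (show ((((q i).out : R) : GL (Fin 2 ⊕ Fin 2) F) : M₄) = 0 from (smul_eq_zero.1 h').resolve_left h2)
  have hanti : ∀ i j, i ≠ j → rep R (q i) * rep R (q j) = -(rep R (q j) * rep R (q i)) := fun i j hij =>
    selfAdj_anti hR hRf h2 (hmem i) (hmem j) fun h => hij (hinj h)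
  refine ⟨q, ⟨hsq, hanti⟩, fun i => (hmem i).2, ?_⟩
  set K := Subgroup.closure (Set.range q)
  have hskew : ∀ j, j ≠ 0 → ¬ adj (rep R (q 0 * q j)) = rep R (q 0 * q j) := by
    intro j hj h
    obtain ⟨c, hc, hcq⟩ := eq_smul_rep hR ((q 0).out * (q j).out)
    rw [QuotientGroup.mk_mul, QuotientGroup.out_eq', QuotientGroup.out_eq'] at hcq
    have hcq' : rep R (q 0) * rep R (q j) = c • rep R (q 0 * q j) := by simpa [rep] using hcq
    have h' := congrArg adj hcq'
    rw [adj_smul, h, ← hcq', adj_mul, (hmem 0).2, (hmem j).2, hanti j 0 hj] at h'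
    have h'' : (2 : F) • (rep R (q 0) * rep R (q j)) = 0 := by
      rw [two_smul]; exact neg_eq_iff_add_eq_zero.1 h'
    have hne : rep R (q 0) * rep R (q j) ≠ 0 := fun h0 => (((q j).out : R) : GL (Fin 2 ⊕ Fin 2) F).ne_zero (by
      show rep R (q j) = 0
      rw [← one_mul (rep R (q j)), ← hsq 0, mul_assoc, h0, mul_zero])
    exact hne ((smul_eq_zero.1 h'').resolve_left h2)
  let f : Unit ⊕ Fin 5 ⊕ {j : Fin 5 // j ≠ 0} → K := Sum.elim (fun _ => 1) (Sum.elim
    (fun i => ⟨q i, Subgroup.subset_closure ⟨i, rfl⟩⟩)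
    (fun j => ⟨q 0 * q j.1, K.mul_mem (Subgroup.subset_closure ⟨0, rfl⟩) (Subgroup.subset_closure ⟨j.1, rfl⟩)⟩))
  have hone : adj (rep R 1) = rep R 1 := by
    obtain ⟨c, hc, h⟩ := eq_smul_rep hR (1 : R)
    rw [QuotientGroup.mk_one, OneMemClass.coe_one, Units.val_one] at h
    rw [show rep R 1 = c⁻¹ • (1 : M₄) by rw [h, smul_smul, inv_mul_cancel₀ hc, one_smul], adj_smul, adj_one]
  have hfinj : Function.Injective f := by
    have key : ∀ (i : Fin 5) (j : {j : Fin 5 // j ≠ 0}), q i ≠ q 0 * q j.1 := fun i j h =>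
      hskew j.1 j.2 (by rw [← h]; exact (hmem i).2)
    rintro (a | a | a) (b | b | b) h <;> have h' := congrArg Subtype.val h <;>
      simp only [f, Sum.elim_inl, Sum.elim_inr, OneMemClass.coe_one] at h'
    · rfl
    · exact absurd h'.symm (hmem b).1
    · exact absurd (h' ▸ hone) (hskew b.1 b.2)
    · exact absurd h' (hmem a).1
    · rw [hinj h']
    · exact absurd h' (key a b)
    · exact absurd (h'.symm ▸ hone) (hskew a.1 a.2)
    · exact absurd h'.symm (key b a)
    · rw [Subtype.ext (hinj (mul_left_cancel h'))]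
  have hK : 10 ≤ Nat.card K := by
    have := Nat.card_le_card_of_injective f hfinj
    simpa [Nat.card_eq_fintype_card, Fintype.card_subtype_compl] using this
  rcases Nat.lt_or_ge K.index 2 with h | h
  · exact Subgroup.index_eq_one.1 (by have := K.index_ne_zero_of_finite; omega)
  · exfalso
    have hm := Subgroup.card_mul_index K
    rw [card_lines_four hR (by simp) h2] at hm
    nlinarith

/-- An element of order five of `Sp_4` normalising the group. -/
theorem exists_order_five (hR : IsPauli R) (hRf : R ≤ Cfsg.spGL 2 F) (h2 : (2 : F) ≠ 0) :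
    ∃ y ∈ Cfsg.spGL 2 F, y ∈ Subgroup.normalizer (R : Set (GL (Fin 2 ⊕ Fin 2) F)) ∧ y ^ 5 = 1 ∧ y ≠ 1 := by
  classical
  obtain ⟨q, hΓ, hadj, hgen⟩ := exists_frame hR hRf h2
  set Γ : Fin 5 → M₄ := fun i => rep R (q i)
  set D : Fin 5 → M₄ := fun i => Γ i - Γ (i + 1)
  have hne : ∀ i : Fin 5, i ≠ i + 1 := by decide
  have hDD : ∀ i, D i * D i = (2 : F) • 1 := fun i => hΓ.sub_sq (hne i)
  have hadjD : ∀ i, adj (D i) = D i := fun i => by
    show adj (Γ i - Γ (i + 1)) = _
    rw [adj_sub, hadj, hadj]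
  set Y : M₄ := (4 : F)⁻¹ • (D 0 * D 1 * (D 2 * D 3))
  have h4 : (4 : F) ≠ 0 := by rw [show (4 : F) = 2 * 2 by norm_num]; exact mul_ne_zero h2 h2
  have hperm : ∀ m, Y * Γ m = Γ (m + 1) * Y := by
    intro m
    set π : Equiv.Perm (Fin 5) := Equiv.swap 2 (2 + 1) * Equiv.swap 3 (3 + 1) with hπ
    set π' : Equiv.Perm (Fin 5) := Equiv.swap 0 (0 + 1) * Equiv.swap 1 (1 + 1) with hπ'
    have e1 : D 2 * D 3 * Γ m = Γ (π m) * (D 2 * D 3) := hΓ.sub_sub_perm (hne 2) (hne 3) m
    have e2 : D 0 * D 1 * Γ (π m) = Γ (π' (π m)) * (D 0 * D 1) := hΓ.sub_sub_perm (hne 0) (hne 1) (π m)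
    have hp : ∀ k : Fin 5, π' (π k) = k + 1 := by
      rw [hπ, hπ']
      decide
    rw [hp] at e2
    simp only [Y, Matrix.smul_mul, Matrix.mul_smul]
    rw [mul_assoc (D 0 * D 1), e1, ← mul_assoc (D 0 * D 1), e2, mul_assoc]
  have hYadj : adj Y * Y = 1 := by
    have k : ∀ (i : Fin 5) (M : M₄), D i * (D i * M) = (2 : F) • M := fun i M => by
      rw [← mul_assoc, hDD, Matrix.smul_mul, one_mul]
    simp only [Y, adj_smul, adj_mul, hadjD, Matrix.smul_mul, Matrix.mul_smul, smul_smul, mul_assoc, k, hDD]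
    convert one_smul F (1 : M₄) using 2
    field_simp; norm_num
  let y : GL (Fin 2 ⊕ Fin 2) F := ⟨Y, adj Y, mul_eq_one_comm.1 hYadj, hYadj⟩
  have hysp : y ∈ Cfsg.spGL 2 F := mem_spGL_of_adj hYadj
  have hyN : y ∈ Subgroup.normalizer (R : Set (GL (Fin 2 ⊕ Fin 2) F)) := by
    refine mem_normalizer_of_lines hR _ hgen ?_ (by simp)
    rintro _ ⟨m, rfl⟩
    exact ⟨(q (m + 1)).out, 1, by rw [one_smul]; exact hperm m, Or.inl rfl⟩
  have hconj : ∀ m, y * ((q m).out : GL (Fin 2 ⊕ Fin 2) F) * y⁻¹ = (q (m + 1)).out := fun m => by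
    have : y * ((q m).out : GL (Fin 2 ⊕ Fin 2) F) = (q (m + 1)).out * y := Units.ext (hperm m)
    rw [this, mul_inv_cancel_right]
  have hy5 : ∀ m, y ^ 5 * ((q m).out : GL (Fin 2 ⊕ Fin 2) F) * (y ^ 5)⁻¹ = (q m).out := by
    intro m
    have h5 : m + 1 + 1 + 1 + 1 + 1 = m := by revert m; decide
    conv_rhs => rw [← h5, ← hconj, ← hconj, ← hconj, ← hconj, ← hconj]
    simp only [pow_succ, pow_zero, one_mul, mul_inv_rev, mul_assoc]
  obtain ⟨c, hc⟩ := hR.centraliser_scalar (M := ((y ^ 5 : GL (Fin 2 ⊕ Fin 2) F) : M₄)) (by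
    have hfix : ∀ x : R, y ^ 5 * (x : GL (Fin 2 ⊕ Fin 2) F) = x * y ^ 5 := by
      let C : Subgroup R :=
        { carrier := {x | y ^ 5 * (x : GL (Fin 2 ⊕ Fin 2) F) = x * y ^ 5}
          one_mem' := by simp
          mul_mem' := fun {a b} ha hb => by
            show y ^ 5 * ((a : GL (Fin 2 ⊕ Fin 2) F) * b) = a * b * y ^ 5
            rw [← mul_assoc, ha, mul_assoc, hb, mul_assoc]
          inv_mem' := fun {a} ha => (show Commute (y ^ 5) (a : GL (Fin 2 ⊕ Fin 2) F) from ha).inv_right }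
      have hcen : Subgroup.center R ≤ C := fun z hz => by
        obtain ⟨d, hd⟩ := hR.centraliser_scalar (M := ((z : GL (Fin 2 ⊕ Fin 2) F) : M₄)) (by
          rintro _ ⟨w, hw, rfl⟩
          exact congrArg (fun u : R => ((u : GL (Fin 2 ⊕ Fin 2) F) : M₄)) (Subgroup.mem_center_iff.1 hz ⟨w, hw⟩).symm)
        exact Units.ext (by simp [hd])
      have hmap : C.map (QuotientGroup.mk' (Subgroup.center R)) = ⊤ := by
        rw [eq_top_iff, ← hgen, Subgroup.closure_le]
        rintro _ ⟨m, rfl⟩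
        exact ⟨(q m).out, mul_inv_eq_iff_eq_mul.1 (hy5 m), QuotientGroup.out_eq' _⟩
      have h1 := congrArg (Subgroup.comap (QuotientGroup.mk' (Subgroup.center R))) hmap
      rw [Subgroup.comap_map_eq, QuotientGroup.ker_mk', sup_eq_left.2 hcen, Subgroup.comap_top] at h1
      exact fun x => show x ∈ C from h1 ▸ Subgroup.mem_top _
    rintro _ ⟨x, hx, rfl⟩
    exact congrArg (fun u : GL (Fin 2 ⊕ Fin 2) F => (u : M₄)) (hfix ⟨x, hx⟩))
  have hq01 : ¬ q 1 = q 0 := fun h => by
    have h01 : rep R (q 1) * rep R (q 0) = -(rep R (q 0) * rep R (q 1)) := hΓ.anti 1 0 (by decide)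
    have hs : rep R (q 1) * rep R (q 1) = 1 := hΓ.sq 1
    rw [← h, hs] at h01
    exact h2 (by
      have := congrFun (congrFun h01 (.inl 0)) (.inl 0)
      simp at this
      linear_combination this)
  have hyne : ∀ d : F, (y : M₄) ≠ d • 1 := fun d hd => hq01 (by
    have : y * ((q 0).out : GL (Fin 2 ⊕ Fin 2) F) = ((q 0).out : GL (Fin 2 ⊕ Fin 2) F) * y := Units.ext (by simp [hd])
    have h := hconj 0
    rw [this, mul_inv_cancel_right] at h
    rw [← QuotientGroup.out_eq' (q 0), ← QuotientGroup.out_eq' (q 1)]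
    exact congrArg QuotientGroup.mk (Subtype.ext h.symm))
  have hc1 : c = 1 ∨ c = -1 := by
    have h := mem_spGL_iff_matrix.1 (pow_mem hysp 5)
    rw [hc, Matrix.transpose_smul, Matrix.transpose_one, Matrix.smul_mul, one_mul, Matrix.smul_mul,
      Matrix.mul_smul, mul_one, smul_smul] at h
    have := congrFun (congrFun h (.inl 0)) (.inr 0)
    simp [Matrix.J] at this
    exact mul_self_eq_one_iff.1 this
  have hneg : (-1 : GL (Fin 2 ⊕ Fin 2) F) ∈ Cfsg.spGL 2 F := hRf (hR.neg_one_mem (by simp))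
  rcases hc1 with rfl | rfl
  · exact ⟨y, hysp, hyN, Units.ext (by rw [hc, one_smul]; rfl), fun h => hyne 1 (by rw [h, one_smul]; rfl)⟩
  · refine ⟨-1 * y, mul_mem hneg hysp, mul_mem ((Subgroup.le_normalizer) (hR.neg_one_mem (by simp))) hyN,
      Units.ext ?_, fun h => hyne (-1) ?_⟩
    · rw [neg_one_mul, Odd.neg_pow (by decide), Units.val_neg, hc]
      simp
    · rw [neg_one_mul, neg_eq_iff_eq_neg] at h
      rw [h]; simp

end CfsgLib.PauliFour
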