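import Cfsg.Agent.Lib.Omega.SLConj

/-!
Characteristic polynomials of elements of small prime order modulo scalars in dimension four.
-/

set_option autoImplicit false
set_option linter.unusedSectionVars false
set_option linter.style.haveILetI false

namespace CfsgLib.PauliFour

open scoped Matrix
open Polynomial CfsgLib.Omega

variable {F : Type*} [Field F]

local notation "M₄" => Matrix (Fin 4) (Fin 4) F
local notation "K" => AlgebraicClosure F
local notation "φ" => algebraMap F (AlgebraicClosure F)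

/-- The roots of the characteristic polynomial of an element with scalar power. -/
theorem exists_spectrum {x : GL (Fin 4) F} {r : ℕ} {z : F} (hr : (r : F) ≠ 0)
    (hz : ((x ^ r : GL (Fin 4) F) : M₄) = z • 1) :
    ∃ m : Multiset K, m.card = 4 ∧ (∀ a ∈ m, a ^ r = φ z) ∧
      (x : M₄).charpoly.map φ = (m.map fun a => X - C a).prod ∧
      φ (Matrix.trace (x : M₄)) = m.sum ∧
      φ (Matrix.trace ((x⁻¹ : GL (Fin 4) F) : M₄)) = (m.map fun a => a⁻¹).sum ∧
      φ (x : M₄).det = m.prod ∧
      ((x⁻¹ : GL (Fin 4) F) : M₄).charpoly.map φ = ((m.map fun a => a⁻¹).map fun a => X - C a).prod ∧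
      (∀ a, (∀ b ∈ m, b = a) → ∃ s : F, (x : M₄) = s • 1) := by
  classical
  have hz0 : z ≠ 0 := fun h => (x ^ r).ne_zero (by rw [hz, h, zero_smul])
  have hrK : (r : K) ≠ 0 := by rw [← map_natCast φ]; exact (map_ne_zero φ).2 hr
  set A : GL (Fin 4) K := Units.map ((φ).mapMatrix).toMonoidHom x with hA
  have hAr : (A : Matrix (Fin 4) (Fin 4) K) ^ r = φ z • 1 := by
    show ((φ).mapMatrix (x : M₄)) ^ r = _
    rw [← map_pow, ← Units.val_pow_eq_pow_val, hz]
    ext i j
    by_cases hij : i = j <;> simp [hij]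
  set S : Finset K := (nthRoots r (φ z)).toFinset with hS
  have hr0 : 0 < r := Nat.pos_of_ne_zero fun h => hr (by simp [h])
  have hsep : (X ^ r - C (φ z) : K[X]).Separable := separable_X_pow_sub_C _ hrK ((map_ne_zero φ).2 hz0)
  have hprod : (∏ s ∈ S, (X - C s)) = X ^ r - C (φ z) := by
    have hnd : (nthRoots r (φ z)).Nodup := nodup_roots hsep
    rw [hS, Finset.prod_eq_multiset_prod, Multiset.toFinset_val, Multiset.dedup_eq_self.2 hnd]
    exact ((IsAlgClosed.splits _).eq_prod_roots_of_monic (monic_X_pow_sub_C _ hr0.ne')).symm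
  obtain ⟨b, d, hd, hb⟩ := exists_eigenbasis (A : Matrix (Fin 4) (Fin 4) K) S (by
    rw [hprod, map_sub, map_pow, aeval_X, aeval_C, hAr, Algebra.algebraMap_eq_smul_one (φ z), sub_self])
  obtain ⟨P, -, hP⟩ := exists_sl_conj_diagonal A b d hb
  have hd0 : ∀ i, d i ≠ 0 := fun i h => by
    have := hd i
    rw [hS, Multiset.mem_toFinset, mem_nthRoots hr0, h, zero_pow hr0.ne'] at this
    exact (map_ne_zero φ).2 hz0 this.symm
  have hPi : ((P⁻¹ * A⁻¹ * P : GL (Fin 4) K) : Matrix (Fin 4) (Fin 4) K) = Matrix.diagonal fun i => (d i)⁻¹ := by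
    have h1 : (P⁻¹ * A * P) * (P⁻¹ * A⁻¹ * P) = 1 := by group
    have h2 := congrArg Units.val h1
    rw [Units.val_mul, hP, Units.val_one] at h2
    have h3 : Matrix.diagonal (fun i => (d i)⁻¹) * Matrix.diagonal d = 1 := by
      rw [Matrix.diagonal_mul_diagonal, ← Matrix.diagonal_one]
      congr 1
      funext i
      exact inv_mul_cancel₀ (hd0 i)
    calc ((P⁻¹ * A⁻¹ * P : GL (Fin 4) K) : Matrix (Fin 4) (Fin 4) K)
        = Matrix.diagonal (fun i => (d i)⁻¹) * Matrix.diagonal d *
          ((P⁻¹ * A⁻¹ * P : GL (Fin 4) K) : Matrix (Fin 4) (Fin 4) K) := by rw [h3, one_mul]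
      _ = _ := by rw [mul_assoc, h2, mul_one]
  have hconj : ∀ (y : GL (Fin 4) F) (e : Fin 4 → K),
      ((P⁻¹ * Units.map ((φ).mapMatrix).toMonoidHom y * P : GL (Fin 4) K) : Matrix (Fin 4) (Fin 4) K) =
        Matrix.diagonal e →
      (y : M₄).charpoly.map φ = ∏ i, (X - C (e i)) ∧ φ (Matrix.trace (y : M₄)) = ∑ i, e i ∧
        φ (y : M₄).det = ∏ i, e i := by
    intro y e he
    set Y := Units.map ((φ).mapMatrix).toMonoidHom y with hY
    have hYv : (Y : Matrix (Fin 4) (Fin 4) K) = (y : M₄).map φ := rfl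
    refine ⟨?_, ?_, ?_⟩
    · rw [← Matrix.charpoly_map, ← hYv, ← Matrix.charpoly_diagonal, ← he, Units.val_mul, Units.val_mul,
        Matrix.coe_units_inv, Matrix.charpoly_units_conj']
    · rw [← Matrix.trace_diagonal, ← he, Units.val_mul, Matrix.trace_mul_comm, ← Units.val_mul,
        ← mul_assoc, mul_inv_cancel, one_mul, hYv, AddMonoidHom.map_trace]
    · rw [← Matrix.det_diagonal, ← he, Units.val_mul, Units.val_mul, Matrix.coe_units_inv,
        Matrix.det_conj' (Units.isUnit _), hYv, ← RingHom.mapMatrix_apply, RingHom.map_det]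
  obtain ⟨c1, t1, d1⟩ := hconj x d hP
  obtain ⟨c2, t2, -⟩ := hconj x⁻¹ (fun i => (d i)⁻¹) (by rw [map_inv]; exact hPi)
  refine ⟨Finset.univ.val.map d, by simp, ?_, ?_, t1, ?_, d1, ?_, ?_⟩
  · intro a ha
    obtain ⟨i, -, rfl⟩ := Multiset.mem_map.1 ha
    have := hd i
    rwa [hS, Multiset.mem_toFinset, mem_nthRoots hr0] at this
  · rw [c1, Multiset.map_map]; rfl
  · rw [t2, Multiset.map_map]; rfl
  · rw [c2, Multiset.map_map, Multiset.map_map]; rfl
  · intro a ha
    have hda : Matrix.diagonal d = a • (1 : Matrix (Fin 4) (Fin 4) K) := by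
      rw [show d = fun _ => a from funext fun i => ha _ (Multiset.mem_map.2 ⟨i, Finset.mem_univ i, rfl⟩),
        Matrix.smul_one_eq_diagonal]
    have hAa : (A : Matrix (Fin 4) (Fin 4) K) = a • 1 := by
      have := congrArg Units.val (show P * (P⁻¹ * A * P) * P⁻¹ = A by group)
      rw [Units.val_mul, Units.val_mul, hP, hda, Matrix.mul_smul, mul_one, Matrix.smul_mul, Units.mul_inv] at this
      exact this.symm
    refine ⟨(x : M₄) 0 0, ?_⟩
    ext i j
    apply (φ).injective
    have h00 := congrFun (congrFun hAa 0) 0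
    have hij := congrFun (congrFun hAa i) j
    simp only [hA, Units.coe_map, RingHom.toMonoidHom_eq_coe, MonoidHom.coe_coe, RingHom.mapMatrix_apply,
      Matrix.map_apply, Matrix.smul_apply, Matrix.one_apply_eq, smul_eq_mul, mul_one] at h00 hij
    rw [Matrix.smul_apply, smul_eq_mul, map_mul, h00, hij]
    by_cases h : i = j <;> simp [h, Matrix.one_apply]

theorem natCast_ne_zero_K {k : ℕ} (h : (k : F) ≠ 0) : (k : K) ≠ 0 := by
  rw [← map_natCast φ]; exact (map_ne_zero φ).2 h

/-- A multiset of square roots of one scalar consists of copies of a root and of its negative. -/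
theorem eq_replicate_pm {m : Multiset K} (hm : m.card = 4) {s : K} (hs0 : s ≠ 0) (h2 : (2 : K) ≠ 0)
    (h : ∀ a ∈ m, a = s ∨ a = -s) :
    ∃ b : ℕ, b ≤ 4 ∧ m = Multiset.replicate (4 - b) s + Multiset.replicate b (-s) := by
  classical
  have hne : s ≠ -s := fun e => mul_ne_zero h2 hs0 (by linear_combination e)
  have heq : m = Multiset.replicate (m.count s) s + Multiset.replicate (m.count (-s)) (-s) := by
    refine Multiset.ext.2 fun a => ?_
    rw [Multiset.count_add, Multiset.count_replicate, Multiset.count_replicate]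
    by_cases ha : a = s
    · subst ha; simp [hne.symm]
    by_cases ha' : a = -s
    · subst ha'; simp [hne]
    rw [if_neg (Ne.symm ha), if_neg (Ne.symm ha'), add_zero,
      Multiset.count_eq_zero.2 fun hmem => (h a hmem).elim ha ha']
  have hc := congrArg Multiset.card heq
  simp only [hm, Multiset.card_add, Multiset.card_replicate] at hc
  exact ⟨m.count (-s), by omega, by rw [show 4 - m.count (-s) = m.count s by omega]; exact heq⟩

/-- The data of an element with scalar square: a root and the multiplicity of its negative. -/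
theorem exists_sq_data {x : GL (Fin 4) F} {z : F} (h2 : (2 : F) ≠ 0) (hz : (x : M₄) * x = z • 1)
    {s : K} (hs : s * s = φ z) :
    ∃ b : ℕ, b ≤ 4 ∧ (x : M₄).charpoly.map φ = (X - C s) ^ (4 - b) * (X - C (-s)) ^ b ∧
      φ (Matrix.trace (x : M₄)) = (4 - 2 * (b : K)) * s ∧ φ (x : M₄).det = (-1) ^ b * (φ z) ^ 2 ∧
      (b = 0 ∨ b = 4 → ∃ c : F, (x : M₄) = c • 1) := by
  have h2' : ((2 : ℕ) : F) ≠ 0 := by exact_mod_cast h2
  have h2K : (2 : K) ≠ 0 := by exact_mod_cast natCast_ne_zero_K h2'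
  obtain ⟨m, hm, hroot, hc, ht, -, hd, -, hsc⟩ :=
    exists_spectrum (x := x) (r := 2) h2' (by rw [sq, Units.val_mul]; exact hz)
  have hz0 : φ z ≠ 0 := (map_ne_zero φ).2 fun h => (x * x).ne_zero (by rw [Units.val_mul, hz, h, zero_smul])
  have hs0 : s ≠ 0 := fun h => hz0 (by rw [← hs, h, mul_zero])
  obtain ⟨b, hb, rfl⟩ := eq_replicate_pm hm hs0 h2K fun a ha =>
    mul_self_eq_mul_self_iff.1 (by rw [← sq, hroot a ha, hs])
  refine ⟨b, hb, ?_, ?_, ?_, ?_⟩
  · rw [hc]; simp
  · rw [ht, Multiset.sum_add, Multiset.sum_replicate, Multiset.sum_replicate, nsmul_eq_mul, nsmul_eq_mul,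
      Nat.cast_sub hb]
    push_cast; ring
  · rw [hd, Multiset.prod_add, Multiset.prod_replicate, Multiset.prod_replicate, neg_pow, ← hs, ← sq, ← pow_mul,
      show 2 * 2 = 4 - b + b by omega, pow_add]
    ring
  · rintro (rfl | rfl)
    · exact hsc s fun a ha => by simp at ha; exact ha
    · exact hsc (-s) fun a ha => by simp at ha; exact ha

/-- Elements with the same scalar square, trace and determinant have the same characteristic polynomial. -/
theorem charpoly_eq_of_sq {x y : GL (Fin 4) F} {z : F} (h2 : (2 : F) ≠ 0) (hx : (x : M₄) * x = z • 1)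
    (hy : (y : M₄) * y = z • 1) (ht : Matrix.trace (x : M₄) = Matrix.trace (y : M₄))
    (hd : (x : M₄).det = (y : M₄).det) : (x : M₄).charpoly = (y : M₄).charpoly := by
  obtain ⟨s, hs⟩ := IsAlgClosed.exists_eq_mul_self (φ z)
  obtain ⟨b, hb, c1, t1, d1, -⟩ := exists_sq_data h2 hx hs.symm
  obtain ⟨b', hb', c2, t2, d2, -⟩ := exists_sq_data h2 hy hs.symm
  have h2K : (2 : K) ≠ 0 := by exact_mod_cast natCast_ne_zero_K (k := 2) (by exact_mod_cast h2)
  have hz0 : φ z ≠ 0 := (map_ne_zero φ).2 fun h => (x * x).ne_zero (by rw [Units.val_mul, hx, h, zero_smul])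
  have hs0 : s ≠ 0 := fun h => hz0 (by rw [hs, h, mul_zero])
  rw [hd, d2] at d1
  have hpar : ((-1 : K) ^ b) = (-1) ^ b' := (mul_right_cancel₀ (pow_ne_zero 2 hz0) d1).symm
  rw [ht, t2] at t1
  have hbb : (b : K) = b' := by
    have h := mul_right_cancel₀ hs0 t1
    exact mul_left_cancel₀ h2K (by linear_combination h)
  have hmod : b % 2 = b' % 2 := by
    rw [neg_one_pow_eq_pow_mod_two, neg_one_pow_eq_pow_mod_two (n := b')] at hpar
    rcases Nat.mod_two_eq_zero_or_one b with h | h <;> rcases Nat.mod_two_eq_zero_or_one b' with h' | h' <;>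
      rw [h, h'] at hpar ⊢ <;> norm_num at hpar <;>
      first
      | exact absurd (by linear_combination hpar : (2 : K) = 0) h2K
      | exact absurd (by linear_combination -hpar : (2 : K) = 0) h2K
  have hk : ∀ k : ℕ, k = 2 ∨ k = 4 → (k : K) ≠ 0 := by
    rintro k (rfl | rfl)
    · exact_mod_cast h2K
    · have : ((4 : ℕ) : K) = 2 * 2 := by push_cast; norm_num
      rw [this]; exact mul_ne_zero h2K h2K
  have : b = b' := by
    rcases lt_trichotomy b b' with h | h | h
    · exact absurd (by rw [Nat.cast_sub h.le, hbb, sub_self]) (hk (b' - b) (by omega))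
    · exact h
    · exact absurd (by rw [Nat.cast_sub h.le, hbb, sub_self]) (hk (b - b') (by omega))
  subst this
  exact Polynomial.map_injective φ (φ).injective (c1.trans c2.symm)

/-- The trace of a non-scalar element of determinant one with scalar square. -/
theorem sq_trace_cases {x : GL (Fin 4) F} {z : F} (h2 : (2 : F) ≠ 0) (hx : (x : M₄) * x = z • 1)
    (hdet : (x : M₄).det = 1) (hns : ∀ c : F, (x : M₄) ≠ c • 1) :
    (z * z = 1 ∧ Matrix.trace (x : M₄) = 0) ∨
      (z * z = -1 ∧ ∃ t : F, t * t = z ∧ Matrix.trace (x : M₄) = 2 * t) := by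
  obtain ⟨s, hs⟩ := IsAlgClosed.exists_eq_mul_self (φ z)
  obtain ⟨b, hb, -, ht, hd, hsc⟩ := exists_sq_data h2 hx hs.symm
  have hnb : b ≠ 0 ∧ b ≠ 4 := ⟨fun h => (hsc (.inl h)).elim hns, fun h => (hsc (.inr h)).elim hns⟩
  rw [hdet, map_one] at hd
  have hb' : b = 1 ∨ b = 2 ∨ b = 3 := by omega
  rcases hb' with rfl | rfl | rfl
  rotate_left
  · refine Or.inl ⟨(φ).injective ?_, (φ).injective ?_⟩
    · rw [map_one, map_mul]; linear_combination -hd
    · rw [ht, map_zero]; push_cast; ring
  all_goals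
    refine Or.inr ⟨(φ).injective (by rw [map_mul, map_neg, map_one]; linear_combination hd), ?_⟩
    refine ⟨Matrix.trace (x : M₄) / 2, (φ).injective ?_, by field_simp⟩
    rw [map_mul, map_div₀, ht, map_ofNat, hs]
    have h2K : (2 : K) ≠ 0 := by exact_mod_cast natCast_ne_zero_K (k := 2) (by exact_mod_cast h2)
    push_cast
    field_simp
    norm_num

/-- The determinant of a matrix with scalar square and trace zero. -/
theorem det_of_sq_trace_zero {x : GL (Fin 4) F} {z : F} (hp : ∀ k : ℕ, k = 2 ∨ k = 4 → (k : F) ≠ 0)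
    (hx : (x : M₄) * x = z • 1) (ht : Matrix.trace (x : M₄) = 0) : (x : M₄).det = z * z := by
  have h2 : (2 : F) ≠ 0 := by exact_mod_cast hp 2 (.inl rfl)
  obtain ⟨s, hs⟩ := IsAlgClosed.exists_eq_mul_self (φ z)
  obtain ⟨b, hb, -, ht', hd, -⟩ := exists_sq_data h2 hx hs.symm
  have h2K : (2 : K) ≠ 0 := by exact_mod_cast natCast_ne_zero_K (hp 2 (.inl rfl))
  have h4K : (4 : K) ≠ 0 := by exact_mod_cast natCast_ne_zero_K (hp 4 (.inr rfl))
  have hz0 : φ z ≠ 0 := (map_ne_zero φ).2 fun h => (x * x).ne_zero (by rw [Units.val_mul, hx, h, zero_smul])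
  have hs0 : s ≠ 0 := fun h => hz0 (by rw [hs, h, mul_zero])
  rw [ht, map_zero] at ht'
  have h := (mul_eq_zero.1 ht'.symm).resolve_right hs0
  interval_cases b <;> push_cast at h
  · exact absurd (by linear_combination h) h4K
  · exact absurd (by linear_combination h) h2K
  · exact (φ).injective (by rw [hd, map_mul]; ring)
  · exact absurd (by linear_combination -h) h2K
  · exact absurd (by linear_combination -h) h4K

/-- The determinant of a reflection. -/
theorem det_reflection {x : GL (Fin 4) F} (h2 : (2 : F) ≠ 0) (hx : (x : M₄) * x = 1)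
    (hns : ∀ c : F, (x : M₄) ≠ c • 1) (ht : Matrix.trace (x : M₄) = 2) : (x : M₄).det = -1 := by
  obtain ⟨b, hb, -, ht', hd, hsc⟩ := exists_sq_data (z := 1) h2 (by rw [hx, one_smul]) (s := 1) (by simp)
  have h2K : (2 : K) ≠ 0 := by exact_mod_cast natCast_ne_zero_K (k := 2) (by exact_mod_cast h2)
  rw [ht, map_ofNat, mul_one] at ht'
  have hb1 : (b : K) = 1 := mul_left_cancel₀ h2K (by linear_combination ht')
  apply (φ).injective
  rw [hd, map_one, one_pow, mul_one, map_neg, map_one]
  interval_cases b <;> push_cast at hb1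
  · exact absurd hb1 zero_ne_one
  · norm_num
  · exact absurd hb1 (fun h => one_ne_zero (α := K) (by linear_combination h))
  · norm_num
  · exact (hsc (.inr rfl)).elim fun c hc => absurd hc (hns c)

/-- The data of an element of order three with equal traces of itself and its inverse. -/
theorem exists_three_data {x : GL (Fin 4) F} (hp : ∀ k : ℕ, 0 < k → k ≤ 4 → (k : F) ≠ 0)
    (hx : x ^ 3 = 1) (ht : Matrix.trace ((x⁻¹ : GL (Fin 4) F) : M₄) = Matrix.trace (x : M₄))
    {ω : K} (hω : IsPrimitiveRoot ω 3) :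
    ∃ b : ℕ, b ≤ 2 ∧ (x : M₄).charpoly.map φ = (X - C 1) ^ (4 - 2 * b) * (X - C ω) ^ b * (X - C (ω ^ 2)) ^ b ∧
      φ (Matrix.trace (x : M₄)) = 4 - 3 * (b : K) ∧ (x : M₄).det = 1 ∧
      (b = 0 → ∃ c : F, (x : M₄) = c • 1) := by
  classical
  obtain ⟨m, hm, hroot, hc, htr, htri, hd, -, hsc⟩ :=
    exists_spectrum (x := x) (r := 3) (z := 1) (hp 3 (by norm_num) (by norm_num))
      (by rw [hx, one_smul]; rfl)
  have hω3 : ω ^ 3 = 1 := hω.pow_eq_one
  have hω0 : ω ≠ 0 := hω.ne_zero (by norm_num)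
  have hω1 : ω ≠ 1 := hω.ne_one (by norm_num)
  have hω2 : ω ^ 2 ≠ 1 := hω.pow_ne_one_of_pos_of_lt (by norm_num) (by norm_num)
  have hωω : ω ≠ ω ^ 2 := fun h => hω1 (mul_left_cancel₀ hω0 (by rw [mul_one, ← sq, ← h]))
  have hsum : 1 + ω + ω ^ 2 = 0 := by
    have h : (ω - 1) * (1 + ω + ω ^ 2) = 0 := by linear_combination hω3
    exact (mul_eq_zero.1 h).resolve_left (sub_ne_zero.2 hω1)
  have hmem : ∀ a ∈ m, a = 1 ∨ a = ω ∨ a = ω ^ 2 := by
    intro a ha
    have h := hroot a ha
    rw [map_one] at h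
    obtain ⟨k, hk, rfl⟩ := hω.eq_pow_of_pow_eq_one h
    interval_cases k <;> simp
  set a0 := m.count 1
  set a1 := m.count ω
  set a2 := m.count (ω ^ 2)
  have heq : m = Multiset.replicate a0 1 + Multiset.replicate a1 ω + Multiset.replicate a2 (ω ^ 2) := by
    refine Multiset.ext.2 fun a => ?_
    rw [Multiset.count_add, Multiset.count_add, Multiset.count_replicate, Multiset.count_replicate,
      Multiset.count_replicate]
    by_cases h0 : a = 1
    · subst h0; simp [a0, hω1, hω2]
    by_cases h1 : a = ω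
    · subst h1; simp [a1, hω1.symm, hωω.symm]
    by_cases h2' : a = ω ^ 2
    · subst h2'; simp [a2, hω2.symm, hωω]
    rw [if_neg (Ne.symm h0), if_neg (Ne.symm h1), if_neg (Ne.symm h2'),
      Multiset.count_eq_zero.2 fun hmem' => by rcases hmem a hmem' with h | h | h <;> contradiction]
  have hcard : a0 + a1 + a2 = 4 := by
    have h := congrArg Multiset.card heq
    simp only [hm, Multiset.card_add, Multiset.card_replicate] at h
    omega
  rw [ht, htr, heq] at htri
  simp only [Multiset.map_add, Multiset.map_replicate, Multiset.sum_add, Multiset.sum_replicate, nsmul_eq_mul,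
    inv_one, mul_one] at htri
  have hi1 : ω⁻¹ = ω ^ 2 := inv_eq_of_mul_eq_one_right (by rw [← pow_succ', hω3])
  have hi2 : (ω ^ 2)⁻¹ = ω := inv_eq_of_mul_eq_one_right (by rw [← pow_succ, hω3])
  rw [hi1, hi2] at htri
  have h12 : (a1 : K) = a2 := by
    have h : ((a1 : K) - a2) * (ω - ω ^ 2) = 0 := by linear_combination htri
    exact sub_eq_zero.1 ((mul_eq_zero.1 h).resolve_right (sub_ne_zero.2 hωω))
  have h21 : a1 = a2 := by
    rcases lt_trichotomy a1 a2 with h | h | h
    · exact absurd (by rw [Nat.cast_sub h.le, h12, sub_self])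
        (natCast_ne_zero_K (hp (a2 - a1) (by omega) (by omega)))
    · exact h
    · exact absurd (by rw [Nat.cast_sub h.le, h12, sub_self])
        (natCast_ne_zero_K (hp (a1 - a2) (by omega) (by omega)))
  refine ⟨a1, by omega, ?_, ?_, ?_, ?_⟩
  · rw [hc, heq, ← h21, show 4 - 2 * a1 = a0 by omega]; simp
  · rw [htr, heq, ← h21]
    simp only [Multiset.sum_add, Multiset.sum_replicate, nsmul_eq_mul, mul_one]
    rw [show (a0 : K) = 4 - 2 * (a1 : K) by
      have h := congrArg (Nat.cast : ℕ → K) (show a0 + 2 * a1 = 4 by omega)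
      push_cast at h
      linear_combination h]
    linear_combination (a1 : K) * hsum
  · apply (φ).injective
    rw [hd, heq, ← h21, map_one]
    simp only [Multiset.prod_add, Multiset.prod_replicate, one_pow, one_mul]
    rw [← mul_pow, ← pow_succ', hω3, one_pow]
  · intro h0
    exact hsc 1 fun a ha => by
      rw [heq, ← h21, h0] at ha
      simp [Multiset.mem_replicate] at ha
      exact ha.2

/-- Elements of order three with equal traces have the same characteristic polynomial. -/
theorem charpoly_eq_of_three {x y : GL (Fin 4) F} (hp : ∀ k : ℕ, 0 < k → k ≤ 4 → (k : F) ≠ 0)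
    (hx : x ^ 3 = 1) (hy : y ^ 3 = 1) (htx : Matrix.trace ((x⁻¹ : GL (Fin 4) F) : M₄) = Matrix.trace (x : M₄))
    (hty : Matrix.trace ((y⁻¹ : GL (Fin 4) F) : M₄) = Matrix.trace (y : M₄))
    (ht : Matrix.trace (x : M₄) = Matrix.trace (y : M₄)) : (x : M₄).charpoly = (y : M₄).charpoly := by
  haveI : NeZero ((3 : ℕ) : K) := ⟨natCast_ne_zero_K (hp 3 (by norm_num) (by norm_num))⟩
  obtain ⟨ω, hω⟩ := HasEnoughRootsOfUnity.exists_primitiveRoot K 3
  obtain ⟨b, hb, c1, t1, -⟩ := exists_three_data hp hx htx hω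
  obtain ⟨b', hb', c2, t2, -⟩ := exists_three_data hp hy hty hω
  rw [ht, t2] at t1
  have h3 : (3 : K) ≠ 0 := by exact_mod_cast natCast_ne_zero_K (hp 3 (by norm_num) (by norm_num))
  have hbb : (b : K) = b' := mul_left_cancel₀ h3 (by linear_combination t1)
  have : b = b' := by
    rcases lt_trichotomy b b' with h | h | h
    · exact absurd (by rw [Nat.cast_sub h.le, hbb, sub_self])
        (natCast_ne_zero_K (hp (b' - b) (by omega) (by omega)))
    · exact h
    · exact absurd (by rw [Nat.cast_sub h.le, hbb, sub_self])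
        (natCast_ne_zero_K (hp (b - b') (by omega) (by omega)))
  subst this
  exact Polynomial.map_injective φ (φ).injective (c1.trans c2.symm)

/-- The two possible traces of an element of order three. -/
theorem three_trace_cases {x : GL (Fin 4) F} (hp : ∀ k : ℕ, 0 < k → k ≤ 4 → (k : F) ≠ 0)
    (hx : x ^ 3 = 1) (htx : Matrix.trace ((x⁻¹ : GL (Fin 4) F) : M₄) = Matrix.trace (x : M₄))
    (hns : ∀ c : F, (x : M₄) ≠ c • 1) : Matrix.trace (x : M₄) = 1 ∨ Matrix.trace (x : M₄) = -2 := by
  haveI : NeZero ((3 : ℕ) : K) := ⟨natCast_ne_zero_K (hp 3 (by norm_num) (by norm_num))⟩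
  obtain ⟨ω, hω⟩ := HasEnoughRootsOfUnity.exists_primitiveRoot K 3
  obtain ⟨b, hb, -, t1, -, hsc⟩ := exists_three_data hp hx htx hω
  interval_cases b
  · exact (hsc rfl).elim fun c hc => absurd hc (hns c)
  · exact .inl ((φ).injective (by rw [t1, map_one]; norm_num))
  · exact .inr ((φ).injective (by rw [t1, map_neg, map_ofNat]; norm_num))

/-- Elements of order five with root set stable under a generator of the units modulo five. -/
theorem charpoly_of_five {x : GL (Fin 4) F} (h5 : (5 : F) ≠ 0) (hx : x ^ 5 = 1) (hns : ∀ c : F, (x : M₄) ≠ c • 1)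
    {e : ℕ} (he : e % 5 = 2 ∨ e % 5 = 3)
    (hinv : ∀ m : Multiset K, (x : M₄).charpoly.map φ = (m.map fun a => X - C a).prod →
      ((x⁻¹ : GL (Fin 4) F) : M₄).charpoly.map φ = ((m.map fun a => a⁻¹).map fun a => X - C a).prod →
      (∀ a ∈ m, a ^ 5 = 1) → ∀ a ∈ m, a ^ e ∈ m) :
    (x : M₄).charpoly.map φ = ∏ a ∈ primitiveRoots 5 K, (X - C a) := by
  classical
  obtain ⟨m, hm, hroot, hc, -, -, -, hci, hsc⟩ :=
    exists_spectrum (x := x) (r := 5) (z := 1) (by exact_mod_cast h5) (by rw [hx, one_smul]; rfl)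
  have hr1 : ∀ a ∈ m, a ^ 5 = 1 := fun a ha => by rw [hroot a ha, map_one]
  have hst := hinv m hc hci hr1
  obtain ⟨a, ha, ha1⟩ : ∃ a ∈ m, a ≠ 1 := by
    by_contra! h
    exact (hsc 1 h).elim fun c hcx => hns c hcx
  haveI : Fact (Nat.Prime 5) := ⟨by norm_num⟩
  have hprim : IsPrimitiveRoot a 5 := by
    rw [← orderOf_eq_prime (hr1 a ha) ha1]; exact IsPrimitiveRoot.orderOf a
  have hiter : ∀ k : ℕ, a ^ e ^ k ∈ m := by
    intro k
    induction k with
    | zero => simpa using ha
    | succ k ih => rw [pow_succ, pow_mul]; exact hst _ ih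
  have hsub : (primitiveRoots 5 K).val ⊆ m := by
    intro y hy
    rw [Finset.mem_val, mem_primitiveRoots (by norm_num)] at hy
    obtain ⟨k, hk, rfl⟩ := hprim.eq_pow_of_pow_eq_one hy.pow_eq_one
    have hk0 : k ≠ 0 := fun h => by
      subst h; rw [pow_zero] at hy; exact hy.ne_one (by norm_num) rfl
    obtain ⟨j, hj⟩ : ∃ j, e ^ j % 5 = k := by
      rcases he with he | he <;> interval_cases k
      · exact absurd rfl hk0
      · exact ⟨0, rfl⟩
      · exact ⟨1, by simp [he]⟩
      · exact ⟨3, by rw [Nat.pow_mod, he]⟩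
      · exact ⟨2, by rw [Nat.pow_mod, he]⟩
      · exact absurd rfl hk0
      · exact ⟨0, rfl⟩
      · exact ⟨3, by rw [Nat.pow_mod, he]⟩
      · exact ⟨1, by simp [he]⟩
      · exact ⟨2, by rw [Nat.pow_mod, he]⟩
    have h := hiter j
    rwa [pow_eq_pow_mod _ (hr1 a ha), hj] at h
  have hle : (primitiveRoots 5 K).val ≤ m := (Multiset.le_iff_subset (primitiveRoots 5 K).nodup).2 hsub
  have hcard : m.card ≤ (primitiveRoots 5 K).val.card := by
    rw [hm, Finset.card_val, hprim.card_primitiveRoots, Nat.totient_prime (by norm_num)]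
  rw [hc, ← Multiset.eq_of_le_of_card_le hle hcard]
  rfl

end CfsgLib.PauliFour
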