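import Cfsg.Agent.Lib.PauliFour.FrameGL
import Cfsg.Agent.Lib.PauliFour.Roots

/-!
Elements of orders two, three and five of the normaliser of a Pauli group in dimension four.
-/

set_option autoImplicit false
set_option linter.unusedSectionVars false
set_option linter.unusedSimpArgs false
set_option linter.style.haveILetI false

namespace CfsgLib.PauliFour

open scoped Matrix
open Cfsg.Geo CfsgLib.SmallDim

variable {F : Type*} [Field F] [Finite F] {R : Subgroup (GL (Fin 4) F)}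

local notation "M₄" => Matrix (Fin 4) (Fin 4) F

/-- A matrix anticommuting with an involution has trace zero. -/
theorem trace_zero_of_anti (h2 : (2 : F) ≠ 0) {G M : M₄} (hG : G * G = 1) (h : G * M = -(M * G)) :
    Matrix.trace M = 0 := by
  have e : Matrix.trace (G * M * G) = Matrix.trace M := by
    rw [Matrix.trace_mul_cycle, hG, one_mul]
  rw [h, Matrix.neg_mul, mul_assoc, hG, mul_one, Matrix.trace_neg] at e
  exact (mul_eq_zero.1 (show (2 : F) * Matrix.trace M = 0 by linear_combination -e)).resolve_left h2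

/-- A matrix unit from an invertible square. -/
theorem exists_unit_of_mul {M N : M₄} {c : F} (hc : c ≠ 0) (h : M * N = c • 1) :
    ∃ u : GL (Fin 4) F, (u : M₄) = M := by
  have h1 : M * (c⁻¹ • N) = 1 := by rw [Matrix.mul_smul, h, smul_smul, inv_mul_cancel₀ hc, one_smul]
  exact ⟨⟨M, c⁻¹ • N, h1, mul_eq_one_comm.1 h1⟩, rfl⟩

/-- A scalar unit lies in the normaliser. -/
theorem mem_normalizer_of_scalar {u : GL (Fin 4) F} {c : F} (h : (u : M₄) = c • 1) :
    u ∈ Subgroup.normalizer (R : Set (GL (Fin 4) F)) := by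
  refine Subgroup.mem_normalizer_fintype fun x hx => ?_
  have : u * x = x * u := Units.ext (by simp [h])
  rw [this, mul_inv_cancel_right]
  exact hx

variable (hR : IsPauli R) {i : F} (hi : i * i = -1) {ie : R} (hie : mt ie = i • 1) (h2 : (2 : F) ≠ 0)
  {g : Fin 5 → R} (hΓ : Anti (fun k => mt (g k)))
  (hgen : Subgroup.closure (Set.range fun k => (QuotientGroup.mk (g k) : R ⧸ Subgroup.center R)) = ⊤)
include hR hi hie h2 hΓ hgen

theorem neg_mem_R {x : R} : ∃ x' : R, mt x' = -mt x := by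
  refine ⟨ie * (ie * x), ?_⟩
  rw [mt_mul, mt_mul, hie, Matrix.smul_mul, one_mul, Matrix.smul_mul, one_mul, smul_smul, hi, neg_one_smul]

/-- An element moving each generator to the matrix of an element normalises. -/
theorem mem_normalizer_of_images {u : GL (Fin 4) F}
    (h : ∀ k, ∃ x : R, (u : M₄) * mt (g k) = mt x * u) :
    u ∈ Subgroup.normalizer (R : Set (GL (Fin 4) F)) := by
  refine mem_normalizer_of_gens hR g hgen fun k => ?_
  obtain ⟨x, hx⟩ := h k
  have : u * (g k : GL (Fin 4) F) = x * u := Units.ext hx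
  rw [this, mul_inv_cancel_right]
  exact x.2

/-- The difference of two of the involutions, in the normaliser. -/
theorem exists_diff {k l : Fin 5} (hkl : k ≠ l) : ∃ u : GL (Fin 4) F, (u : M₄) = mt (g k) - mt (g l) ∧
    u ∈ Subgroup.normalizer (R : Set (GL (Fin 4) F)) := by
  obtain ⟨u, hu⟩ := exists_unit_of_mul h2 (hΓ.sub_sq hkl)
  refine ⟨u, hu, mem_normalizer_of_images hR hi hie h2 hΓ hgen fun m => ?_⟩
  obtain ⟨x, hx⟩ := neg_mem_R hR hi hie h2 hΓ hgen (x := g (Equiv.swap k l m))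
  refine ⟨x, ?_⟩
  rw [hu, hx, Matrix.neg_mul]
  exact hΓ.sub_swap hkl m

theorem trace_gen (k : Fin 5) : Matrix.trace (mt (g k)) = 0 := by
  obtain ⟨l, hl⟩ : ∃ l : Fin 5, l ≠ k := exists_ne k
  exact trace_zero_of_anti h2 (hΓ.sq l) (hΓ.anti l k hl)

theorem trace_gen_two {k l : Fin 5} (h : k ≠ l) : Matrix.trace (mt (g k) * mt (g l)) = 0 := by
  refine trace_zero_of_anti h2 (hΓ.sq k) ?_
  rw [mul_assoc (mt (g k)) (mt (g l)), hΓ.anti l k h.symm, Matrix.mul_neg, neg_neg]

theorem trace_gen_three {k l m : Fin 5} (h : k ≠ l) (h' : k ≠ m) (h'' : l ≠ m) :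
    Matrix.trace (mt (g k) * (mt (g l) * mt (g m))) = 0 := by
  obtain ⟨n, hk, hl, hm⟩ : ∃ n : Fin 5, n ≠ k ∧ n ≠ l ∧ n ≠ m := by
    revert k l m; decide
  refine trace_zero_of_anti h2 (hΓ.sq n) ?_
  rw [← mul_assoc, hΓ.anti n k hk, Matrix.neg_mul, mul_assoc, ← mul_assoc (mt (g n)), hΓ.anti n l hl,
    Matrix.neg_mul, mul_assoc (mt (g l)), hΓ.anti n m hm]
  simp [mul_assoc]

theorem trace_gen_four {k l m n : Fin 5} (h1 : k ≠ l) (h3 : k ≠ m) (h4 : k ≠ n) :
    Matrix.trace (mt (g k) * (mt (g l) * (mt (g m) * mt (g n)))) = 0 := by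
  refine trace_zero_of_anti h2 (hΓ.sq k) ?_
  have a : ∀ {p : Fin 5}, k ≠ p → ∀ X, mt (g k) * (mt (g p) * X) = -(mt (g p) * (mt (g k) * X)) :=
    fun hp X => by rw [← mul_assoc, hΓ.anti k _ hp, Matrix.neg_mul, mul_assoc]
  conv_lhs => rw [a h1, a h3, hΓ.anti k n h4]
  simp [mul_assoc]

/-- The two elements of order three with their product. -/
theorem exists_order_three :
    ∀ t : F, (t = 1 ∨ t = -2) → ∃ y : GL (Fin 4) F, y ∈ Subgroup.normalizer (R : Set (GL (Fin 4) F)) ∧
      y ^ 3 = 1 ∧ Matrix.trace (y : M₄) = t ∧ Matrix.trace ((y⁻¹ : GL (Fin 4) F) : M₄) = t := by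
  obtain ⟨u01, hu01, hn01⟩ := exists_diff hR hi hie h2 hΓ hgen (k := 0) (l := 1) (by decide)
  obtain ⟨u12, hu12, hn12⟩ := exists_diff hR hi hie h2 hΓ hgen (k := 1) (l := 2) (by decide)
  obtain ⟨u34, hu34, hn34⟩ := exists_diff hR hi hie h2 hΓ hgen (k := 3) (l := 4) (by decide)
  have hs : ∀ {k : Fin 5}, mt (g k) * mt (g k) = 1 := fun {k} => hΓ.sq k
  have hs' : ∀ {k : Fin 5} X, mt (g k) * (mt (g k) * X) = X := fun {k} X => by rw [← mul_assoc, hs, one_mul]
  have ha : ∀ {k l : Fin 5}, l < k → mt (g k) * mt (g l) = -(mt (g l) * mt (g k)) := fun h => hΓ.anti _ _ h.ne'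
  have ha' : ∀ {k l : Fin 5} X, l < k → mt (g k) * (mt (g l) * X) = -(mt (g l) * (mt (g k) * X)) := fun X h => by
    rw [← mul_assoc, ha h, Matrix.neg_mul, mul_assoc]
  -- the second half
  obtain ⟨v, hv⟩ : ∃ v : GL (Fin 4) F, (v : M₄) = 1 + i • mt (g 4) := by
    refine exists_unit_of_mul (N := 1 - i • mt (g 4)) h2 ?_
    simp [Matrix.add_mul, Matrix.mul_sub, smul_smul, hi, hs, two_smul]
    abel
  have hvN : v ∈ Subgroup.normalizer (R : Set (GL (Fin 4) F)) := by
    refine mem_normalizer_of_images hR hi hie h2 hΓ hgen fun k => ?_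
    rcases eq_or_ne k 4 with rfl | hk
    · exact ⟨g 4, by rw [hv]; simp [Matrix.add_mul, Matrix.mul_add]⟩
    · obtain ⟨x, hx⟩ := neg_mem_R hR hi hie h2 hΓ hgen (x := ie * (g k * g 4))
      refine ⟨x, ?_⟩
      rw [hx, hv, mt_mul, mt_mul, hie]
      simp [Matrix.add_mul, Matrix.mul_add, mul_assoc, smul_smul, hi, hs,
        ha (lt_of_le_of_ne (Fin.le_last k) hk : k < 4)]
  have hi0 : i ≠ 0 := fun h => by rw [h] at hi; simp at hi
  obtain ⟨cy, hcy⟩ : ∃ u : GL (Fin 4) F, (u : M₄) = (2 : F)⁻¹ • 1 :=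
    exists_unit_of_mul (N := 1) (inv_ne_zero h2) (by rw [mul_one])
  obtain ⟨cz, hcz⟩ : ∃ u : GL (Fin 4) F, (u : M₄) = (-(i * (2 : F)⁻¹)) • 1 :=
    exists_unit_of_mul (N := 1) (neg_ne_zero.2 (mul_ne_zero hi0 (inv_ne_zero h2)))
      (by rw [mul_one])
  set Q : M₄ := mt (g 0) * mt (g 1) - mt (g 0) * mt (g 2) + mt (g 1) * mt (g 2) with hQ
  set S : M₄ := mt (g 3) - mt (g 4) + i • (mt (g 3) * mt (g 4)) with hS
  obtain ⟨y, hy⟩ : ∃ y, y = cy * (u01 * u12) := ⟨_, rfl⟩
  obtain ⟨z, hz⟩ : ∃ z, z = cz * (u34 * v) := ⟨_, rfl⟩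
  have hyv : (y : M₄) = (2 : F)⁻¹ • (Q - 1) := by
    simp [hy, hcy, hu01, hu12, hQ, Matrix.sub_mul, Matrix.mul_sub, hs]
    congr 1
    abel
  have hzv : (z : M₄) = (-(2 : F)⁻¹) • (1 + i • S) := by
    simp only [hz, Units.val_mul, hcz, hu34, hv, hS, Matrix.sub_mul, Matrix.mul_add, Matrix.mul_smul,
      Matrix.smul_mul, one_mul, mul_one, hs]
    match_scalars <;> first | linear_combination (2 : F)⁻¹ * hi | linear_combination -(2 : F)⁻¹ * hi | ring
  have hQQ : Q * Q = (-3 : F) • 1 := by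
    simp (discharger := decide) [hQ, Matrix.add_mul, Matrix.mul_add, Matrix.sub_mul, Matrix.mul_sub, mul_assoc,
      hs, hs', ha, ha']
    rw [show (3 : F) = 1 + 1 + 1 by norm_num, add_smul, add_smul, one_smul]
    abel
  have hSS : S * S = (3 : F) • 1 := by
    simp (discharger := decide) [hS, Matrix.add_mul, Matrix.mul_add, Matrix.sub_mul, Matrix.mul_sub, mul_assoc,
      hs, hs', ha, ha', smul_smul, hi]
    rw [show (3 : F) = 1 + 1 + 1 by norm_num, add_smul, add_smul, one_smul]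
    abel
  have hQS : S * Q = Q * S := by
    simp (discharger := decide) [hQ, hS, Matrix.add_mul, Matrix.mul_add, Matrix.sub_mul, Matrix.mul_sub,
      mul_assoc, hs, hs', ha, ha', smul_add, smul_sub]
    abel
  have h4 : (2 : F)⁻¹ * (2 : F)⁻¹ * 2 = (2 : F)⁻¹ := by field_simp
  have hy2 : (y : M₄) * y = -1 - (y : M₄) := by
    rw [hyv]
    simp only [Matrix.smul_mul, Matrix.mul_smul, Matrix.sub_mul, Matrix.mul_sub, one_mul, mul_one, hQQ, smul_sub,
      smul_smul]
    match_scalars <;> field_simp <;> ring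
  have hz2 : (z : M₄) * z = -1 - (z : M₄) := by
    rw [hzv]
    simp only [Matrix.smul_mul, Matrix.mul_smul, Matrix.add_mul, Matrix.mul_add, one_mul, mul_one, hSS, smul_add,
      smul_smul]
    match_scalars <;> field_simp <;> first | linear_combination (3 : F) * hi | ring
  have hcube : ∀ w : GL (Fin 4) F, (w : M₄) * w = -1 - (w : M₄) → w ^ 3 = 1 := fun w hw => Units.ext (by
    rw [pow_succ, sq, Units.val_mul, Units.val_mul, hw, Matrix.sub_mul, hw, neg_one_mul, Units.val_one]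
    abel)
  have hinv : ∀ w : GL (Fin 4) F, w ^ 3 = 1 → w⁻¹ = w * w := fun w hw =>
    inv_eq_of_mul_eq_one_right (by rw [← mul_assoc, ← sq, ← pow_succ, hw])
  have hyz : y * z = z * y := Units.ext (by
    rw [Units.val_mul, Units.val_mul, hyv, hzv]
    simp only [Matrix.smul_mul, Matrix.mul_smul, Matrix.sub_mul, Matrix.mul_sub, Matrix.add_mul, Matrix.mul_add,
      one_mul, mul_one, hQS]
    module)
  have t2 : ∀ {k l : Fin 5}, k ≠ l → Matrix.trace (mt (g k) * mt (g l)) = 0 := fun h =>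
    trace_gen_two hR hi hie h2 hΓ hgen h
  have tQ : Matrix.trace Q = 0 := by
    rw [hQ]; simp (discharger := decide) [t2]
  have tS : Matrix.trace S = 0 := by
    rw [hS]; simp (discharger := decide) [t2, trace_gen hR hi hie h2 hΓ hgen]
  have tQS : Matrix.trace (Q * S) = 0 := by
    have t3 : ∀ {k l m : Fin 5}, k ≠ l → k ≠ m → l ≠ m → Matrix.trace (mt (g k) * (mt (g l) * mt (g m))) = 0 :=
      fun a b c => trace_gen_three hR hi hie h2 hΓ hgen a b c
    have t4 : ∀ {k l m n : Fin 5}, k ≠ l → k ≠ m → k ≠ n →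
        Matrix.trace (mt (g k) * (mt (g l) * (mt (g m) * mt (g n)))) = 0 :=
      fun a b c => trace_gen_four hR hi hie h2 hΓ hgen a b c
    simp (discharger := decide) [hQ, hS, Matrix.add_mul, Matrix.mul_add, Matrix.sub_mul, Matrix.mul_sub,
      mul_assoc, t3, t4]
  have htone : Matrix.trace (1 : M₄) = 4 := by rw [Matrix.trace_one]; simp
  have ty : Matrix.trace (y : M₄) = -2 := by
    rw [hyv, Matrix.trace_smul, Matrix.trace_sub, tQ, htone, smul_eq_mul]; field_simp; norm_num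
  have tz : Matrix.trace (z : M₄) = -2 := by
    rw [hzv, Matrix.trace_smul, Matrix.trace_add, Matrix.trace_smul, tS, htone, smul_zero, smul_eq_mul]
    field_simp; norm_num
  have tyz : Matrix.trace ((y : M₄) * (z : M₄)) = 1 := by
    rw [hyv, hzv]
    simp only [Matrix.smul_mul, Matrix.mul_smul, Matrix.sub_mul, Matrix.mul_add, one_mul, mul_one,
      Matrix.trace_smul, Matrix.trace_add, Matrix.trace_sub, tQ, tS, tQS, htone, smul_eq_mul]
    field_simp; norm_num
  have hyN : y ∈ Subgroup.normalizer (R : Set (GL (Fin 4) F)) :=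
    hy ▸ mul_mem (mem_normalizer_of_scalar hcy) (mul_mem hn01 hn12)
  have hzN : z ∈ Subgroup.normalizer (R : Set (GL (Fin 4) F)) :=
    hz ▸ mul_mem (mem_normalizer_of_scalar hcz) (mul_mem hn34 hvN)
  have hy3 := hcube y hy2
  have hz3 := hcube z hz2
  rintro t (rfl | rfl)
  · have h3 : (y * z) ^ 3 = 1 := by
      rw [(show Commute y z from hyz).mul_pow, hy3, hz3, one_mul]
    refine ⟨y * z, mul_mem hyN hzN, h3, tyz, ?_⟩
    rw [hinv _ h3, show y * z * (y * z) = y * y * (z * z) by rw [mul_assoc, ← mul_assoc z, ← hyz]; group,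
      Units.val_mul, Units.val_mul, Units.val_mul, hy2, hz2]
    simp only [Matrix.sub_mul, Matrix.mul_sub, neg_one_mul, mul_neg_one, neg_neg, Matrix.trace_sub,
      Matrix.trace_neg, htone, ty, tz, tyz]
    ring
  · refine ⟨y, hyN, hy3, ty, ?_⟩
    rw [hinv _ hy3, Units.val_mul, hy2, Matrix.trace_sub, Matrix.trace_neg, htone, ty]
    ring

/-- An element of order five. -/
theorem exists_order_five_gl : ∃ y : GL (Fin 4) F, y ∈ Subgroup.normalizer (R : Set (GL (Fin 4) F)) ∧
    y ^ 5 = 1 ∧ (∀ c : F, (y : M₄) ≠ c • 1) ∧ (y : M₄).det = 1 := by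
  have hp : ∀ k : ℕ, k = 2 ∨ k = 4 → (k : F) ≠ 0 := by
    rintro k (rfl | rfl)
    · exact_mod_cast h2
    · have : ((4 : ℕ) : F) = 2 * 2 := by push_cast; norm_num
      rw [this]; exact mul_ne_zero h2 h2
  obtain ⟨u0, e0, n0⟩ := exists_diff hR hi hie h2 hΓ hgen (k := 0) (l := 1) (by decide)
  obtain ⟨u1, e1, n1⟩ := exists_diff hR hi hie h2 hΓ hgen (k := 1) (l := 2) (by decide)
  obtain ⟨u2, e2, n2⟩ := exists_diff hR hi hie h2 hΓ hgen (k := 2) (l := 3) (by decide)
  obtain ⟨u3, e3, n3⟩ := exists_diff hR hi hie h2 hΓ hgen (k := 3) (l := 4) (by decide)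
  have h4 : (4 : F) ≠ 0 := by exact_mod_cast hp 4 (.inr rfl)
  obtain ⟨cq, hcq⟩ : ∃ u : GL (Fin 4) F, (u : M₄) = (4 : F)⁻¹ • 1 :=
    exists_unit_of_mul (N := 1) (inv_ne_zero h4) (by rw [mul_one])
  set y := cq * (u0 * u1 * (u2 * u3))
  have hdetD : ∀ (k l : Fin 5) (u : GL (Fin 4) F), k ≠ l → (u : M₄) = mt (g k) - mt (g l) →
      (u : M₄).det = 4 := fun k l u hkl hu => by
    rw [det_of_sq_trace_zero hp (z := 2) (by rw [hu]; exact hΓ.sub_sq hkl) (by
      rw [hu, Matrix.trace_sub, trace_gen hR hi hie h2 hΓ hgen, trace_gen hR hi hie h2 hΓ hgen, sub_self])]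
    norm_num
  have hdy : (y : M₄).det = 1 := by
    simp only [y, Units.val_mul, Matrix.det_mul, hcq, Matrix.det_smul, Fintype.card_fin, Matrix.det_one,
      hdetD 0 1 u0 (by decide) e0, hdetD 1 2 u1 (by decide) e1, hdetD 2 3 u2 (by decide) e2,
      hdetD 3 4 u3 (by decide) e3]
    field_simp
  have hyN : y ∈ Subgroup.normalizer (R : Set (GL (Fin 4) F)) :=
    mul_mem (mem_normalizer_of_scalar hcq) (mul_mem (mul_mem n0 n1) (mul_mem n2 n3))
  have hperm : ∀ m, (y : M₄) * mt (g m) = mt (g (m + 1)) * y := by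
    intro m
    have p1 : (u2 : M₄) * u3 * mt (g m) = mt (g ((Equiv.swap (2 : Fin 5) 3 * Equiv.swap (3 : Fin 5) 4) m)) * ((u2 : M₄) * u3) := by
      rw [e2, e3]; exact hΓ.sub_sub_perm (by decide) (by decide) m
    have p2 : ∀ n, (u0 : M₄) * u1 * mt (g n) = mt (g ((Equiv.swap (0 : Fin 5) 1 * Equiv.swap (1 : Fin 5) 2) n)) * ((u0 : M₄) * u1) := by
      intro n; rw [e0, e1]; exact hΓ.sub_sub_perm (by decide) (by decide) n
    have hπ : ∀ m : Fin 5, (Equiv.swap (0 : Fin 5) 1 * Equiv.swap (1 : Fin 5) 2) ((Equiv.swap (2 : Fin 5) 3 * Equiv.swap (3 : Fin 5) 4) m) = m + 1 := by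
      decide
    simp only [y, Units.val_mul, hcq, Matrix.smul_mul, Matrix.mul_smul, one_mul]
    rw [mul_assoc ((u0 : M₄) * u1), p1, ← mul_assoc ((u0 : M₄) * u1), p2, hπ, mul_assoc]
  have h5 : ∀ m, (y ^ 5 : GL (Fin 4) F) * (g m : GL (Fin 4) F) = g m * y ^ 5 := by
    intro m
    have hs : ∀ n, y * (g n : GL (Fin 4) F) = g (n + 1) * y := fun n => Units.ext (hperm n)
    have h5' : m + 1 + 1 + 1 + 1 + 1 = m := by revert m; decide
    conv_rhs => rw [← h5']
    simp only [pow_succ, pow_zero, one_mul, mul_assoc, hs]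
    simp only [← mul_assoc, hs]
  obtain ⟨c, hc⟩ := hR.centraliser_scalar (M := ((y ^ 5 : GL (Fin 4) F) : M₄)) (by
    let C : Subgroup R :=
      { carrier := {x | y ^ 5 * (x : GL (Fin 4) F) = x * y ^ 5}
        one_mem' := by simp
        mul_mem' := fun {a b} ha hb => by
          show y ^ 5 * ((a : GL (Fin 4) F) * b) = a * b * y ^ 5
          rw [← mul_assoc, ha, mul_assoc, hb, mul_assoc]
        inv_mem' := fun {a} ha => (show Commute (y ^ 5) (a : GL (Fin 4) F) from ha).inv_right }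
    have hcen : Subgroup.center R ≤ C := fun w hw => by
      obtain ⟨d, hd⟩ := hR.centraliser_scalar (M := ((w : GL (Fin 4) F) : M₄)) (by
        rintro _ ⟨v, hv, rfl⟩
        exact congrArg (fun u : R => ((u : GL (Fin 4) F) : M₄)) (Subgroup.mem_center_iff.1 hw ⟨v, hv⟩).symm)
      exact Units.ext (by simp [hd])
    have hmap : C.map (QuotientGroup.mk' (Subgroup.center R)) = ⊤ := by
      rw [eq_top_iff, ← hgen, Subgroup.closure_le]
      rintro _ ⟨m, rfl⟩
      exact ⟨g m, h5 m, rfl⟩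
    have h1 := congrArg (Subgroup.comap (QuotientGroup.mk' (Subgroup.center R))) hmap
    rw [Subgroup.comap_map_eq, QuotientGroup.ker_mk', sup_eq_left.2 hcen, Subgroup.comap_top] at h1
    rintro _ ⟨x, hx, rfl⟩
    exact congrArg (fun u : GL (Fin 4) F => (u : M₄)) (show (⟨x, hx⟩ : R) ∈ C from h1 ▸ Subgroup.mem_top _))
  have hc4 : c ^ 4 = 1 := by
    have h := congrArg Matrix.det hc
    rw [Units.val_pow_eq_pow_val, Matrix.det_pow, hdy, one_pow, Matrix.det_smul, Matrix.det_one, mul_one,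
      Fintype.card_fin] at h
    exact h.symm
  have hyns : ∀ d : F, (y : M₄) ≠ d • 1 := fun d hd => by
    have h := hperm 0
    rw [hd, Matrix.smul_mul, one_mul, Matrix.mul_smul, mul_one] at h
    have hd0 : d ≠ 0 := fun h0 => y.ne_zero (by rw [hd, h0, zero_smul])
    have hg : mt (g 0) = mt (g 1) := smul_right_injective M₄ hd0 h
    have ha : mt (g 0) * mt (g 1) = -(mt (g 1) * mt (g 0)) := hΓ.anti 0 1 (by decide)
    have hs : mt (g 1) * mt (g 1) = 1 := hΓ.sq 1
    rw [hg, hs] at ha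
    have := congrFun (congrFun ha 0) 0
    simp at this
    exact h2 (by linear_combination this)
  have hc0 : c ≠ 0 := fun h => by simp [h] at hc4
  obtain ⟨s, hs⟩ : ∃ u : GL (Fin 4) F, (u : M₄) = (c ^ 3) • 1 :=
    exists_unit_of_mul (N := 1) (pow_ne_zero 3 hc0) (by rw [mul_one])
  refine ⟨s * y, mul_mem (mem_normalizer_of_scalar hs) hyN, Units.ext ?_, fun d hd => ?_, ?_⟩
  · rw [Units.val_pow_eq_pow_val, Units.val_mul, hs, Matrix.smul_mul, one_mul, smul_pow,
      ← Units.val_pow_eq_pow_val, hc, smul_smul, Units.val_one]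
    rw [show (c ^ 3) ^ 5 * c = (c ^ 4) ^ 4 by ring, hc4, one_pow, one_smul]
  · refine hyns (c * d) ?_
    rw [Units.val_mul, hs, Matrix.smul_mul, one_mul] at hd
    calc (y : M₄) = (c ^ 4) • (y : M₄) := by rw [hc4, one_smul]
      _ = c • ((c ^ 3) • (y : M₄)) := by rw [smul_smul, ← pow_succ']
      _ = _ := by rw [hd, smul_smul]
  · rw [Units.val_mul, hs, Matrix.det_mul, Matrix.det_smul, Matrix.det_one, mul_one, hdy, mul_one,
      Fintype.card_fin, ← pow_mul, show 3 * 4 = 4 * 3 by rfl, pow_mul, hc4, one_pow]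

/-- A reflection. -/
theorem exists_reflection : ∃ h : GL (Fin 4) F, h ∈ Subgroup.normalizer (R : Set (GL (Fin 4) F)) ∧
    (h : M₄) * h = 1 ∧ Matrix.trace (h : M₄) = 2 ∧ (h : M₄).det = -1 := by
  have hs : ∀ {k : Fin 5}, mt (g k) * mt (g k) = 1 := fun {k} => hΓ.sq k
  have hs' : ∀ {k : Fin 5} X, mt (g k) * (mt (g k) * X) = X := fun {k} X => by rw [← mul_assoc, hs, one_mul]
  have ha : ∀ {k l : Fin 5}, l < k → mt (g k) * mt (g l) = -(mt (g l) * mt (g k)) := fun h => hΓ.anti _ _ h.ne'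
  have ha' : ∀ {k l : Fin 5} X, l < k → mt (g k) * (mt (g l) * X) = -(mt (g l) * (mt (g k) * X)) := fun X h => by
    rw [← mul_assoc, ha h, Matrix.neg_mul, mul_assoc]
  set A : M₄ := mt (g 0) with hA
  set C : M₄ := i • (mt (g 1) * mt (g 2)) with hC
  have hAA : A * A = 1 := hs
  have hCC : C * C = 1 := by
    simp (discharger := decide) [hC, mul_assoc, hs, hs', ha, ha', smul_smul, hi]
  have hCA : C * A = A * C := by
    simp (discharger := decide) [hC, hA, mul_assoc, hs, hs', ha, ha']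
  have hCA' : ∀ X, C * (A * X) = A * (C * X) := fun X => by rw [← mul_assoc, hCA, mul_assoc]
  have hAA' : ∀ X, A * (A * X) = X := fun X => by rw [← mul_assoc, hAA, one_mul]
  have hCC' : ∀ X, C * (C * X) = X := fun X => by rw [← mul_assoc, hCC, one_mul]
  set W : M₄ := 1 + A + C - A * C with hW
  have hWW : W * W = (4 : F) • 1 := by
    simp only [hW, Matrix.add_mul, Matrix.mul_add, Matrix.sub_mul, Matrix.mul_sub, mul_assoc, hAA, hCC, hCA,
      hCA', hAA', hCC', one_mul, mul_one]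
    rw [show (4 : F) = 1 + 1 + 1 + 1 by norm_num, add_smul, add_smul, add_smul, one_smul]
    abel
  have h4 : (4 : F) ≠ 0 := by rw [show (4 : F) = 2 * 2 by norm_num]; exact mul_ne_zero h2 h2
  obtain ⟨h, hh⟩ : ∃ h : GL (Fin 4) F, (h : M₄) = (2 : F)⁻¹ • W := by
    refine exists_unit_of_mul (N := W) (c := (2 : F)⁻¹ * 4) (mul_ne_zero (inv_ne_zero h2) h4) ?_
    rw [Matrix.smul_mul, hWW, smul_smul]
  have hh2 : (h : M₄) * h = 1 := by
    rw [hh, Matrix.smul_mul, Matrix.mul_smul, hWW, smul_smul, smul_smul]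
    rw [show (2 : F)⁻¹ * (2 : F)⁻¹ * 4 = 1 by field_simp; norm_num, one_smul]
  have hth : Matrix.trace (h : M₄) = 2 := by
    have tC : Matrix.trace C = 0 := by
      rw [hC, Matrix.trace_smul, trace_gen_two hR hi hie h2 hΓ hgen (by decide), smul_zero]
    have tAC : Matrix.trace (A * C) = 0 := by
      rw [hC, hA, Matrix.mul_smul, Matrix.trace_smul,
        trace_gen_three hR hi hie h2 hΓ hgen (by decide) (by decide) (by decide), smul_zero]
    rw [hh, hW, Matrix.trace_smul, Matrix.trace_sub, Matrix.trace_add, Matrix.trace_add, tC, tAC, hA,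
      trace_gen hR hi hie h2 hΓ hgen, Matrix.trace_one]
    simp
    field_simp
    norm_num
  have hns : ∀ c : F, (h : M₄) ≠ c • 1 := fun c hc => by
    rw [hc, Matrix.smul_mul, one_mul, smul_smul] at hh2
    have hcc : c * c = 1 := by simpa using congrFun (congrFun hh2 0) 0
    rw [hc, Matrix.trace_smul, Matrix.trace_one] at hth
    simp at hth
    rcases mul_self_eq_one_iff.1 hcc with rfl | rfl
    · exact h2 (by linear_combination hth)
    · refine h2 ?_
      have h6 : (2 : F) * 3 = 0 := by linear_combination -hth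
      have h3 := (mul_eq_zero.1 h6).resolve_left h2
      -- in characteristic three the reflection would be `-1`
      rw [hh] at hc
      have hA1 : A * W + W = (2 : F) • (1 + A) := by
        simp only [hW, Matrix.mul_add, Matrix.mul_sub, hAA, hAA', mul_one]
        rw [two_smul]; abel
      have hWs : W = (-2 : F) • 1 := by
        calc W = (2 : F) • ((2 : F)⁻¹ • W) := by rw [smul_smul, mul_inv_cancel₀ h2, one_smul]
          _ = _ := by rw [hc, smul_smul, mul_neg_one]
      rw [hWs, Matrix.mul_smul, mul_one] at hA1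
      have tr := congrArg Matrix.trace hA1
      simp only [Matrix.trace_add, Matrix.trace_smul, hA, trace_gen hR hi hie h2 hΓ hgen, Matrix.trace_one,
        Fintype.card_fin, smul_eq_mul] at tr
      exact absurd (show (2 : F) * 2 * 2 * 2 = 0 by push_cast at tr; linear_combination -tr)
        (mul_ne_zero (mul_ne_zero (mul_ne_zero h2 h2) h2) h2)
  refine ⟨h, mem_normalizer_of_images hR hi hie h2 hΓ hgen fun k => ?_, hh2, hth, det_reflection h2 hh2 hns hth⟩
  obtain ⟨x, hx⟩ : ∃ x : R, W * mt (g k) = mt x * W := by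
    obtain ⟨x12, hx12⟩ := neg_mem_R hR hi hie h2 hΓ hgen (x := g 0 * (ie * (g 1 * g 2)) * g k)
    have e12 : mt x12 = -(A * C * mt (g k)) := by
      rw [hx12, mt_mul, mt_mul, mt_mul, mt_mul, hie, hC, hA]; simp [mul_assoc]
    have e34 : mt (ie * (g 1 * g 2) * g k) = C * mt (g k) := by
      rw [mt_mul, mt_mul, mt_mul, hie, hC]; simp [mul_assoc]
    fin_cases k
    · exact ⟨g 0, by simp only [hW, hA, Matrix.add_mul, Matrix.mul_add, Matrix.sub_mul, Matrix.mul_sub, mul_assoc,
        hs, hs', hC]; simp (discharger := decide) [mul_assoc, hs, hs', ha, ha']⟩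
    · exact ⟨x12, by rw [e12]; simp (discharger := decide) [hW, hA, hC, Matrix.add_mul, Matrix.mul_add,
        Matrix.sub_mul, Matrix.mul_sub, mul_assoc, hs, hs', ha, ha', smul_smul, smul_add, smul_sub, hi]; abel⟩
    · exact ⟨x12, by rw [e12]; simp (discharger := decide) [hW, hA, hC, Matrix.add_mul, Matrix.mul_add,
        Matrix.sub_mul, Matrix.mul_sub, mul_assoc, hs, hs', ha, ha', smul_smul, smul_add, smul_sub, hi]; abel⟩
    · exact ⟨_, by rw [e34]; simp (discharger := decide) [hW, hA, hC, Matrix.add_mul, Matrix.mul_add,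
        Matrix.sub_mul, Matrix.mul_sub, mul_assoc, hs, hs', ha, ha', smul_smul, smul_add, smul_sub, hi]; abel⟩
    · exact ⟨_, by rw [e34]; simp (discharger := decide) [hW, hA, hC, Matrix.add_mul, Matrix.mul_add,
        Matrix.sub_mul, Matrix.mul_sub, mul_assoc, hs, hs', ha, ha', smul_smul, smul_add, smul_sub, hi]; abel⟩
  exact ⟨x, by rw [hh, Matrix.smul_mul, hx, Matrix.mul_smul]⟩

end CfsgLib.PauliFour
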