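import Cfsg.Agent.Lib.PauliFour.Four

/-!
Conjugates of the test elements: scalars, traces and rank one deviations.
-/

set_option autoImplicit false
set_option linter.unusedSectionVars false
set_option linter.style.haveILetI false

namespace CfsgLib.PauliFour

open scoped Matrix
open Cfsg.Geo CfsgLib.SmallDim

variable {F : Type*} [Field F] {ι : Type} [Fintype ι] [DecidableEq ι] {x g : GL ι F}

theorem trace_conj : Matrix.trace ((g⁻¹ * x * g : GL ι F) : Matrix ι ι F) = Matrix.trace (x : Matrix ι ι F) := by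
  rw [Units.val_mul, Matrix.trace_mul_comm, ← Units.val_mul]
  congr 2
  group

theorem trace_conj_inv :
    Matrix.trace (((g⁻¹ * x * g)⁻¹ : GL ι F) : Matrix ι ι F) = Matrix.trace ((x⁻¹ : GL ι F) : Matrix ι ι F) := by
  rw [show (g⁻¹ * x * g)⁻¹ = g⁻¹ * x⁻¹ * g by group, trace_conj]

theorem conj_of_form {a : F} {u φ : ι → F} (h : (x : Matrix ι ι F) = a • 1 + Matrix.vecMulVec u φ) :
    ((g⁻¹ * x * g : GL ι F) : Matrix ι ι F) =
      a • 1 + Matrix.vecMulVec (((g⁻¹ : GL ι F) : Matrix ι ι F) *ᵥ u) (φ ᵥ* (g : Matrix ι ι F)) := by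
  rw [Units.val_mul, Units.val_mul, h, Matrix.mul_add, Matrix.add_mul, Matrix.mul_smul, mul_one, Matrix.smul_mul,
    Units.inv_mul, Matrix.mul_vecMulVec, Matrix.vecMulVec_mul]

theorem conj_scalar {c : F} (h : (x : Matrix ι ι F) = c • 1) : ((g⁻¹ * x * g : GL ι F) : Matrix ι ι F) = c • 1 := by
  rw [Units.val_mul, Units.val_mul, h, Matrix.mul_smul, mul_one, Matrix.smul_mul, Units.inv_mul]

theorem conj_pow_scalar {r : ℕ} {c : F} (h : ((x ^ r : GL ι F) : Matrix ι ι F) = c • 1) :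
    (((g⁻¹ * x * g) ^ r : GL ι F) : Matrix ι ι F) = c • 1 := by
  rw [show (g⁻¹ * x * g) ^ r = g⁻¹ * x ^ r * g by have h := conj_pow (i := r) (a := g⁻¹) (b := x); rwa [inv_inv] at h]
  exact conj_scalar h

theorem conj_not_scalar (h : ∀ d : F, (x : Matrix ι ι F) ≠ d • 1) (d : F) :
    ((g⁻¹ * x * g : GL ι F) : Matrix ι ι F) ≠ d • 1 := fun hd => h d (by
  have := conj_scalar (g := g⁻¹) hd
  rwa [show g⁻¹⁻¹ * (g⁻¹ * x * g) * g⁻¹ = x by group] at this)

variable [Finite F] {R : Subgroup (GL ι F)} (hR : IsPauli R) (hcard : Fintype.card ι = 4) (h2 : (2 : F) ≠ 0)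
  {r : ℕ} [Fact r.Prime] (hr2 : r ≠ 2) {c : F} (hxr : ((x ^ r : GL ι F) : Matrix ι ι F) = c • 1)
  (hns : ∀ d : F, (x : Matrix ι ι F) ≠ d • 1)
include hR hcard h2 hr2 hxr hns

/-- The prime and the trace product of an element some conjugate of which normalises. -/
theorem trace_cases_of_conj (hN : g⁻¹ * x * g ∈ Subgroup.normalizer (R : Set (GL ι F))) :
    (r = 3 ∧ ((Nat.card (fixedLines hN) = 1 ∧
        Matrix.trace (x : Matrix ι ι F) * Matrix.trace ((x⁻¹ : GL ι F) : Matrix ι ι F) = 1) ∨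
      (Nat.card (fixedLines hN) = 4 ∧
        Matrix.trace (x : Matrix ι ι F) * Matrix.trace ((x⁻¹ : GL ι F) : Matrix ι ι F) = 4))) ∨
    (r = 5 ∧ Nat.card (fixedLines hN) = 1 ∧
        Matrix.trace (x : Matrix ι ι F) * Matrix.trace ((x⁻¹ : GL ι F) : Matrix ι ι F) = 1) := by
  haveI : Nonempty ι := Fintype.card_pos_iff.1 (by omega)
  have ht := trace_mul_trace hR hN (conj_pow_scalar (g := g) hxr) hr2 h2 (card_ne_zero_of_four hcard h2)
  rw [trace_conj, trace_conj_inv] at ht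
  rcases fixed_cases hR hcard h2 hN hr2 (conj_pow_scalar hxr) (conj_not_scalar hns) with ⟨h, hf | hf⟩ | ⟨h, hf⟩
  · exact Or.inl ⟨h, Or.inl ⟨hf, by rw [ht, hf, Nat.cast_one]⟩⟩
  · exact Or.inl ⟨h, Or.inr ⟨hf, by rw [ht, hf, Nat.cast_ofNat]⟩⟩
  · exact Or.inr ⟨h, hf, by rw [ht, hf, Nat.cast_one]⟩

/-- No conjugate of a rank one deviation from a scalar normalises. -/
theorem not_conj_rank_one {a : F} {u φ : ι → F} (hform : (x : Matrix ι ι F) = a • 1 + Matrix.vecMulVec u φ) :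
    g⁻¹ * x * g ∉ Subgroup.normalizer (R : Set (GL ι F)) := fun hN =>
  not_rank_one hR hcard h2 hN hr2 (conj_pow_scalar hxr) (conj_not_scalar hns) a _ _ (conj_of_form hform)

end CfsgLib.PauliFour
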