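import Cfsg.Agent.Lib.PauliFour.Fixed4
import Cfsg.Agent.Lib.PauliFour.Transfer

/-!
Elements without fixed points on the cosets of the normaliser of a Pauli group in dimension four.
-/

set_option autoImplicit false
set_option linter.unusedSectionVars false
set_option linter.style.haveILetI false
set_option linter.unusedSimpArgs false

namespace CfsgLib.PauliFour

open scoped Matrix
open Cfsg.Geo CfsgLib.SmallDim

variable {F : Type*} [Field F] [Finite F] {p : ℕ} {G R : Subgroup (GL (Fin 4) F)}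

local notation "M₄" => Matrix (Fin 4) (Fin 4) F

/-- If every element of order `r` modulo scalars has a fixed point then `r` is three or five. -/
theorem Ambient.prime_cases (H : Ambient p G R) {r : ℕ} [Fact r.Prime] (hr2 : r ≠ 2)
    (hΩ : r ∣ (Cfsg.Geo.subgroupNormalizer R).relIndex G)
    (hall : ∀ x ∈ G, (∃ z : F, ((x ^ r : GL (Fin 4) F) : M₄) = z • (1 : M₄)) →
      (∀ z : F, (x : M₄) ≠ z • (1 : M₄)) → ∃ g ∈ G, g⁻¹ * x * g ∈ Cfsg.Geo.subgroupNormalizer R) :
    r = 3 ∨ r = 5 := by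
  have hr : r.Prime := Fact.out
  haveI : Fintype G := Fintype.ofFinite _
  obtain ⟨x, hx⟩ := exists_prime_orderOf_dvd_card' r (G := G) (hΩ.trans (Subgroup.relIndex_dvd_card _ _))
  have hxr : (x : GL (Fin 4) F) ^ r = 1 := congrArg Subtype.val (orderOf_dvd_iff_pow_eq_one.1 (dvd_of_eq hx))
  have hns : ∀ d : F, ((x : GL (Fin 4) F) : M₄) ≠ d • 1 := fun d hd => by
    have hd4 : d ^ 4 = 1 := by
      have h := H.det x x.2
      rwa [hd, Matrix.det_smul, Matrix.det_one, mul_one, Fintype.card_fin] at h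
    have : x ^ 4 = 1 := Subtype.ext (Units.ext (by
      rw [SubmonoidClass.coe_pow, Units.val_pow_eq_pow_val, hd, _root_.smul_pow, one_pow, hd4, one_smul]
      rfl))
    have hdvd := orderOf_dvd_of_pow_eq_one this
    rw [hx] at hdvd
    exact hr2 ((Nat.prime_dvd_prime_iff_eq hr Nat.prime_two).1
      (hr.dvd_of_dvd_pow (show r ∣ 2 ^ 2 from hdvd)))
  have hxr' : (((x : GL (Fin 4) F) ^ r : GL (Fin 4) F) : M₄) = (1 : F) • 1 := by rw [hxr, one_smul]; rfl
  obtain ⟨g, -, hN⟩ := hall x x.2 ⟨1, hxr'⟩ hns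
  rcases trace_cases_of_conj H.pauli (by simp) H.two hr2 hxr' hns hN with ⟨h, -⟩ | ⟨h, -⟩
  · exact Or.inl h
  · exact Or.inr h

variable (R) in
/-- An element with the trace product of five fixes no point. -/
theorem not_conj_of_five (hR : IsPauli R) (h2 : (2 : F) ≠ 0) (h5 : (5 : F) ≠ 0) {τ : F}
    (hτ : τ * τ + τ - 1 = 0) {x g : GL (Fin 4) F} (hx : x ^ 5 = 1) (hns : ∀ d : F, (x : M₄) ≠ d • 1)
    (ht : Matrix.trace (x : M₄) = τ + 2) (hti : Matrix.trace ((x⁻¹ : GL (Fin 4) F) : M₄) = τ + 2) :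
    g⁻¹ * x * g ∉ Cfsg.Geo.subgroupNormalizer R := fun hN => by
  haveI : Fact (Nat.Prime 5) := ⟨by norm_num⟩
  rcases trace_cases_of_conj hR (by simp) h2 (r := 5) (by norm_num) (c := 1) (by rw [hx, one_smul]; rfl) hns hN
    with ⟨h, -⟩ | ⟨-, -, h⟩
  · omega
  · rw [ht, hti] at h
    exact h5 (by grobner)

omit [Finite F]

/-- The block `[[a, b], [c, a]]` with an identity block. -/
def wTest (a b c : F) (h : a * a - b * c = 1) : GL (Fin 4) F where
  val := !![a, b, 0, 0; c, a, 0, 0; 0, 0, 1, 0; 0, 0, 0, 1]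
  inv := !![a, -b, 0, 0; -c, a, 0, 0; 0, 0, 1, 0; 0, 0, 0, 1]
  val_inv := by
    ext i j
    fin_cases i <;> fin_cases j <;> simp [Matrix.mul_apply, Fin.sum_univ_four] <;> grobner
  inv_val := by
    ext i j
    fin_cases i <;> fin_cases j <;> simp [Matrix.mul_apply, Fin.sum_univ_four] <;> grobner

theorem wTest_det (a b c : F) (h : a * a - b * c = 1) : (wTest a b c h : M₄).det = 1 := by
  simp [wTest, Matrix.det_succ_row_zero, Fin.sum_univ_succ, Fin.succAbove]
  linear_combination h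

theorem wTest_trace (a b c : F) (h : a * a - b * c = 1) : Matrix.trace (wTest a b c h : M₄) = 2 * a + 2 ∧
    Matrix.trace (((wTest a b c h)⁻¹ : GL (Fin 4) F) : M₄) = 2 * a + 2 := by
  constructor <;> simp [wTest, Matrix.trace, Fin.sum_univ_four] <;> ring

theorem wTest_ne_scalar (a b c : F) (h : a * a - b * c = 1) (ha : a ≠ 1) (d : F) :
    (wTest a b c h : M₄) ≠ d • 1 := fun e => by
  have e0 := congrFun (congrFun e 0) 0
  have e2 := congrFun (congrFun e 2) 2
  simp [wTest] at e0 e2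
  exact ha (by rw [e0, ← e2])

theorem wTest_pow_five (a b c : F) (h : a * a - b * c = 1) (hτ : 2 * a * (2 * a) + 2 * a - 1 = 0) :
    wTest a b c h ^ 5 = 1 := by
  have h2 : wTest a b c h ^ 2 * wTest a b c h ^ 2 = (wTest a b c h)⁻¹ := by
    refine Units.ext ?_
    rw [sq, Units.val_mul, Units.val_mul]
    ext i j
    fin_cases i <;> fin_cases j <;> simp [wTest, Matrix.mul_apply, Fin.sum_univ_four] <;> grobner
  calc wTest a b c h ^ 5 = wTest a b c h ^ 2 * wTest a b c h ^ 2 * wTest a b c h := by group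
    _ = 1 := by rw [h2, inv_mul_cancel]

/-- The diagonal element `(ω, ω, ω, 1)`. -/
def ωTest (ω : F) (h : ω ^ 3 = 1) : GL (Fin 4) F where
  val := Matrix.diagonal ![ω, ω, ω, 1]
  inv := Matrix.diagonal ![ω ^ 2, ω ^ 2, ω ^ 2, 1]
  val_inv := by
    rw [Matrix.diagonal_mul_diagonal, ← Matrix.diagonal_one]
    congr 1; funext i; fin_cases i <;> simp [← pow_succ', h]
  inv_val := by
    rw [Matrix.diagonal_mul_diagonal, ← Matrix.diagonal_one]
    congr 1; funext i; fin_cases i <;> simp [← pow_succ, h]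

theorem ωTest_det (ω : F) (h : ω ^ 3 = 1) : (ωTest ω h : M₄).det = 1 := by
  simp [ωTest, Matrix.det_diagonal, Fin.prod_univ_four]
  linear_combination h

theorem ωTest_pow (ω : F) (h : ω ^ 3 = 1) : ((ωTest ω h ^ 3 : GL (Fin 4) F) : M₄) = (1 : F) • 1 := by
  rw [Units.val_pow_eq_pow_val, one_smul]
  show (Matrix.diagonal ![ω, ω, ω, 1]) ^ 3 = 1
  rw [Matrix.diagonal_pow, ← Matrix.diagonal_one]
  congr 1; funext i; fin_cases i <;> simp [h]

theorem ωTest_form (ω : F) (h : ω ^ 3 = 1) : (ωTest ω h : M₄) =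
    ω • 1 + Matrix.vecMulVec ((1 - ω) • Pi.single 3 1) (Pi.single 3 1) := by
  ext i j
  fin_cases i <;> fin_cases j <;> simp [ωTest, Matrix.vecMulVec_apply]

theorem ωTest_ne_scalar (ω : F) (h : ω ^ 3 = 1) (h1 : ω ≠ 1) (d : F) : (ωTest ω h : M₄) ≠ d • 1 := fun e => by
  have e0 := congrFun (congrFun e 0) 0
  have e3 := congrFun (congrFun e 3) 3
  simp [ωTest] at e0 e3
  exact h1 (by rw [e0, ← e3])

/-- A transvection `1 + u φ` with `φ(u) = 0`. -/
def tvTest (u ψ : Fin 4 → F) (h : ψ ⬝ᵥ u = 0) : GL (Fin 4) F where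
  val := 1 + Matrix.vecMulVec u ψ
  inv := 1 - Matrix.vecMulVec u ψ
  val_inv := by simp [add_mul, mul_sub, Matrix.vecMulVec_mul_vecMulVec, h]
  inv_val := by simp [sub_mul, mul_add, Matrix.vecMulVec_mul_vecMulVec, h]

theorem tvTest_form (u ψ : Fin 4 → F) (h : ψ ⬝ᵥ u = 0) :
    (tvTest u ψ h : M₄) = (1 : F) • 1 + Matrix.vecMulVec u ψ := by rw [one_smul]; rfl

theorem tvTest_pow (u ψ : Fin 4 → F) (h : ψ ⬝ᵥ u = 0) (k : ℕ) :
    ((tvTest u ψ h ^ k : GL (Fin 4) F) : M₄) = 1 + (k : F) • Matrix.vecMulVec u ψ := by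
  induction k with
  | zero => simp
  | succ k ih =>
    rw [pow_succ, Units.val_mul, ih]
    show (1 + (k : F) • Matrix.vecMulVec u ψ) * (1 + Matrix.vecMulVec u ψ) = _
    simp [add_mul, mul_add, Matrix.vecMulVec_mul_vecMulVec, h, add_smul]
    abel

theorem tvTest_det (u ψ : Fin 4 → F) (h : ψ ⬝ᵥ u = 0) : (tvTest u ψ h : M₄).det = 1 := by
  show (1 + Matrix.vecMulVec u ψ).det = 1
  rw [Matrix.vecMulVec_eq Unit, Matrix.det_one_add_replicateCol_mul_replicateRow, h, add_zero]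

end CfsgLib.PauliFour
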