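import Mathlib
import Cfsg.Agent.Lib.Omega.PrimeOrderPieces

/-!
Elements of order five in a linear group of dimension four over a field of order `±2` modulo five.
-/

set_option autoImplicit false
set_option linter.unusedSectionVars false
set_option linter.style.haveILetI false

namespace CfsgLib.PauliFour

open scoped Matrix
open CfsgLib.Omega.PrimeOrder

variable {F : Type*} [Field F] [Finite F] {ι : Type} [Fintype ι] [DecidableEq ι]
  (hcard : Fintype.card ι = 4) (ho : orderOf (Nat.card F : ZMod 5) = 4)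
include hcard ho

/-- An element of order five acts irreducibly. -/
theorem irreducible_of_order_five {z : GL ι F} (hz5 : z ^ 5 = 1) (hz1 : z ≠ 1) (W : Submodule F (ι → F))
    (hW : ∀ w ∈ W, (z : Matrix ι ι F) *ᵥ w ∈ W) : W = ⊥ ∨ W = ⊤ := by
  classical
  haveI := Fintype.ofFinite F
  haveI : Fact (Nat.Prime 5) := ⟨by norm_num⟩
  rw [Nat.card_eq_fintype_card] at ho
  have hrF : (Fintype.card F : ZMod 5) ≠ 0 := fun h => by
    have := pow_orderOf_eq_one (Fintype.card F : ZMod 5)
    rw [ho, h] at this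
    norm_num at this
  set y := Matrix.toLin' (z : Matrix ι ι F) with hy
  have hit : ∀ v, y^[5] v = v := fun v => by
    rw [← Module.End.pow_apply, hy, ← Matrix.toLin'_pow, ← Units.val_pow_eq_pow_val, hz5, Units.val_one,
      Matrix.toLin'_one, LinearMap.id_apply]
  have hfix : ∀ v, y v = v → v = 0 := by
    have h := orderOf_dvd_sub_finrank hrF y ⊤ (fun _ _ => Submodule.mem_top) fun v _ => hit v
    rw [ho, finrank_top, Module.finrank_fintype_fun_eq_card, hcard] at h
    rcases Nat.eq_zero_or_pos (Module.finrank F (fixedIn y ⊤)) with h0 | h0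
    · intro v hv
      have : v ∈ fixedIn y ⊤ := mem_fixedIn.2 ⟨Submodule.mem_top, hv⟩
      rwa [Submodule.finrank_eq_zero.1 h0, Submodule.mem_bot] at this
    · exfalso
      have hle : Module.finrank F (fixedIn y ⊤) ≤ 4 := by
        rw [← hcard, ← Module.finrank_fintype_fun_eq_card (R := F)]; exact Submodule.finrank_le _
      have h4 : fixedIn y ⊤ = ⊤ := Submodule.eq_top_of_finrank_eq (by
        rw [Module.finrank_fintype_fun_eq_card, hcard]; omega)
      refine hz1 (Units.ext (Matrix.toLin'.injective (LinearMap.ext fun v => ?_)))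
      rw [Units.val_one, Matrix.toLin'_one, LinearMap.id_apply]
      have hv : v ∈ fixedIn y ⊤ := by rw [h4]; exact Submodule.mem_top
      exact (mem_fixedIn.1 hv).2
  have h := orderOf_dvd_finrank_of_free hrF y W (fun w hw => hW w hw) (fun v _ => hit v) fun w _ => hfix w
  rw [ho] at h
  have hle : Module.finrank F W ≤ 4 := by
    rw [← hcard, ← Module.finrank_fintype_fun_eq_card (R := F)]; exact Submodule.finrank_le _
  rcases Nat.eq_zero_or_pos (Module.finrank F W) with h0 | h0
  · exact Or.inl (Submodule.finrank_eq_zero.1 h0)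
  · refine Or.inr (Submodule.eq_top_of_finrank_eq ?_)
    rw [Module.finrank_fintype_fun_eq_card, hcard]
    have := Nat.le_of_dvd h0 h
    omega

/-- An element of order dividing five commuting with one of order five is a power of it. -/
theorem mem_zpowers_of_commute_five {z w : GL ι F} (hz5 : z ^ 5 = 1) (hz1 : z ≠ 1) (hw5 : w ^ 5 = 1)
    (hzw : z * w = w * z) : w ∈ Subgroup.zpowers z := by
  classical
  haveI : Nonempty ι := Fintype.card_pos_iff.1 (by omega)
  set Z : Matrix ι ι F := (z : Matrix ι ι F) with hZ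
  set W : Matrix ι ι F := (w : Matrix ι ι F) with hW
  have hcomm : ∀ a ∈ ({Z, W} : Set (Matrix ι ι F)), ∀ b ∈ ({Z, W} : Set (Matrix ι ι F)), a * b = b * a := by
    have h : Z * W = W * Z := congrArg Units.val hzw
    rintro a (rfl | rfl) b (rfl | rfl) <;> first | rfl | exact h | exact h.symm
  set S := Algebra.adjoin F ({Z, W} : Set (Matrix ι ι F)) with hS
  have hcent : ∀ m ∈ S, Z * m = m * Z := by
    have : S ≤ Subalgebra.centralizer F {Z} := Algebra.adjoin_le fun a ha => by
      rw [SetLike.mem_coe, Subalgebra.mem_centralizer_iff]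
      rintro g rfl
      exact hcomm _ (Set.mem_insert _ _) a ha
    exact fun m hm => (Subalgebra.mem_centralizer_iff F).1 (this hm) Z rfl
  letI : CommRing S :=
    { (inferInstance : Ring S) with
      mul_comm := fun a b => by
        have hc : ∀ m ∈ S, ∀ n ∈ S, m * n = n * m := by
          intro m hm n hn
          induction hn using Algebra.adjoin_induction with
          | mem x hx =>
            induction hm using Algebra.adjoin_induction with
            | mem y hy => exact hcomm y hy x hx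
            | algebraMap r => exact Algebra.commutes r x
            | add a b _ _ ha hb => rw [add_mul, mul_add, ha, hb]
            | mul a b _ _ ha hb => rw [mul_assoc, hb, ← mul_assoc, ha, mul_assoc]
          | algebraMap r => exact (Algebra.commutes r m).symm
          | add a b _ _ ha hb => rw [add_mul, mul_add, ha, hb]
          | mul a b _ _ ha hb => rw [← mul_assoc, ha, mul_assoc, hb, mul_assoc]
        exact Subtype.ext (hc _ a.2 _ b.2) }
  haveI : NoZeroDivisors S := ⟨fun {a b} hab => by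
    by_contra! hne
    obtain ⟨ha, hb⟩ := hne
    have hker : LinearMap.ker (Matrix.toLin' (a : Matrix ι ι F)) = ⊥ := by
      refine (irreducible_of_order_five hcard ho hz5 hz1 _ fun v hv => ?_).resolve_right fun h => ha (Subtype.ext ?_)
      · rw [LinearMap.mem_ker, Matrix.toLin'_apply] at hv ⊢
        rw [Matrix.mulVec_mulVec, ← hcent _ a.2, ← Matrix.mulVec_mulVec, hv, Matrix.mulVec_zero]
      · exact (LinearEquiv.map_eq_zero_iff _).1 (LinearMap.ker_eq_top.1 h)
    refine hb (Subtype.ext (Matrix.toLin'.injective (LinearMap.ext fun v => ?_)))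
    rw [ZeroMemClass.coe_zero, map_zero, LinearMap.zero_apply]
    apply LinearMap.ker_eq_bot.1 hker
    rw [map_zero, Matrix.toLin'_apply, Matrix.toLin'_apply, Matrix.mulVec_mulVec,
      show (a : Matrix ι ι F) * b = 0 from congrArg Subtype.val hab, Matrix.zero_mulVec]⟩
  haveI : IsDomain S := NoZeroDivisors.to_isDomain S
  set Z' : S := ⟨Z, Algebra.subset_adjoin (Set.mem_insert _ _)⟩
  set W' : S := ⟨W, Algebra.subset_adjoin (Set.mem_insert_of_mem _ rfl)⟩
  have hZ5 : Z' ^ 5 = 1 := Subtype.ext (by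
    rw [SubmonoidClass.coe_pow]; exact (congrArg Units.val hz5).trans rfl)
  have hW5 : W' ^ 5 = 1 := Subtype.ext (by
    rw [SubmonoidClass.coe_pow]; exact (congrArg Units.val hw5).trans rfl)
  haveI : Fact (Nat.Prime 5) := ⟨by norm_num⟩
  have hprim : IsPrimitiveRoot Z' 5 := by
    rw [← orderOf_eq_prime hZ5 fun h => hz1 (Units.ext (congrArg Subtype.val h))]
    exact IsPrimitiveRoot.orderOf Z'
  obtain ⟨i, -, hi⟩ := hprim.eq_pow_of_pow_eq_one hW5
  refine Subgroup.mem_zpowers_iff.2 ⟨i, Units.ext ?_⟩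
  rw [zpow_natCast, Units.val_pow_eq_pow_val]
  exact congrArg Subtype.val hi

/-- Elements of order five are conjugate to powers of one another. -/
theorem exists_conj_zpowers_five {G : Subgroup (GL ι F)} {x y : GL ι F} (hx : x ∈ G) (hy : y ∈ G)
    (hx5 : x ^ 5 = 1) (hy5 : y ^ 5 = 1) (hy1 : y ≠ 1) : ∃ g ∈ G, g⁻¹ * x * g ∈ Subgroup.zpowers y := by
  classical
  haveI : Fact (Nat.Prime 5) := ⟨by norm_num⟩
  have hord : ∀ a : G, a ^ 5 = 1 → IsPGroup 5 (Subgroup.zpowers a) := fun a ha => by
    obtain ⟨k, -, hk⟩ := (Nat.dvd_prime_pow (show Nat.Prime 5 by norm_num)).1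
      (show orderOf a ∣ 5 ^ 1 by rw [pow_one]; exact orderOf_dvd_of_pow_eq_one ha)
    exact IsPGroup.of_card (n := k) (by rw [Nat.card_zpowers, hk])
  obtain ⟨P, hP⟩ := (hord ⟨x, hx⟩ (Subtype.ext hx5)).exists_le_sylow
  obtain ⟨Q, hQ⟩ := (hord ⟨y, hy⟩ (Subtype.ext hy5)).exists_le_sylow
  obtain ⟨g, hg⟩ := MulAction.exists_smul_eq G P Q
  have hxQ : g * ⟨x, hx⟩ * g⁻¹ ∈ Q := by
    rw [← hg]
    exact Subgroup.smul_mem_pointwise_smul (⟨x, hx⟩ : G) (MulAut.conj g) P.toSubgroup
      (hP (Subgroup.mem_zpowers _))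
  have hyQ : (⟨y, hy⟩ : G) ∈ Q := hQ (Subgroup.mem_zpowers _)
  haveI : Nontrivial (Q : Subgroup G) := ⟨⟨⟨_, hyQ⟩, 1, fun h => hy1 (congrArg (fun a : (Q : Subgroup G) => ((a : G) : GL ι F)) h)⟩⟩
  haveI := Q.isPGroup'.center_nontrivial
  obtain ⟨z, hz⟩ := exists_prime_orderOf_dvd_card' 5 (G := Subgroup.center (Q : Subgroup G)) (by
    obtain ⟨k, hk0, hk⟩ := (Q.isPGroup'.to_subgroup (Subgroup.center (Q : Subgroup G))).nontrivial_iff_card.1 inferInstance
    rw [hk]; exact dvd_pow_self 5 (by omega))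
  set z' : GL ι F := (((z : (Q : Subgroup G)) : G) : GL ι F) with hz'
  have hz5 : z' ^ 5 = 1 := by
    have h : z ^ 5 = 1 := orderOf_dvd_iff_pow_eq_one.1 (dvd_of_eq hz)
    have := congrArg (fun a : Subgroup.center (Q : Subgroup G) => (((a : (Q : Subgroup G)) : G) : GL ι F)) h
    simpa [z'] using this
  have hz1 : z' ≠ 1 := fun h => by
    rw [show z = 1 from Subtype.ext (Subtype.ext (Subtype.ext h)), orderOf_one] at hz
    norm_num at hz
  have key : ∀ a ∈ Q, (a : G) ^ 5 = 1 → ((a : G) : GL ι F) ∈ Subgroup.zpowers z' := fun a ha ha5 =>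
    mem_zpowers_of_commute_five hcard ho hz5 hz1 (by simpa using congrArg Subtype.val ha5)
      (congrArg (fun b : (Q : Subgroup G) => ((b : G) : GL ι F)) (Subgroup.mem_center_iff.1 z.2 ⟨a, ha⟩).symm)
  have hxz := key _ hxQ (by
    have h5 : (⟨x, hx⟩ : G) ^ 5 = 1 := Subtype.ext hx5
    rw [conj_pow, h5, mul_one, mul_inv_cancel])
  have hyz := key _ hyQ (Subtype.ext hy5)
  have heq : Subgroup.zpowers y = Subgroup.zpowers z' := by
    refine Subgroup.eq_of_le_of_card_ge (Subgroup.zpowers_le.2 hyz) (le_of_eq ?_)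
    rw [Nat.card_zpowers, Nat.card_zpowers, orderOf_eq_prime hz5 hz1, orderOf_eq_prime hy5 hy1]
  refine ⟨((g : GL ι F))⁻¹, G.inv_mem g.2, ?_⟩
  rw [inv_inv, heq]
  simpa using hxz

end CfsgLib.PauliFour
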