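import Cfsg.Agent.Lib.PauliFour.Lines

/-!
Fixed lines of an element of odd prime order modulo scalars normalising a Pauli group.
-/

set_option autoImplicit false
set_option linter.unusedSectionVars false
set_option linter.style.haveILetI false

namespace CfsgLib.PauliFour

open scoped Matrix
open Cfsg.Geo CfsgLib.SmallDim

variable {F : Type*} [Field F] {ι : Type} [Fintype ι] [DecidableEq ι] {R : Subgroup (GL ι F)}
  {y : GL ι F}

/-- The lines fixed by an element of the normaliser. -/
noncomputable def fixedLines (hy : y ∈ Subgroup.normalizer (R : Set (GL ι F))) :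
    Subgroup (R ⧸ Subgroup.center R) :=
  MonoidHom.eqLocus (lineMap hy).toMonoidHom (MonoidHom.id _)

theorem mem_fixedLines {hy : y ∈ Subgroup.normalizer (R : Set (GL ι F))} {q : R ⧸ Subgroup.center R} :
    q ∈ fixedLines hy ↔ lineMap hy q = q := Iff.rfl

/-- The linear map `M ↦ A * M * B`. -/
def sandwich (A B : Matrix ι ι F) : Matrix ι ι F →ₗ[F] Matrix ι ι F :=
  (LinearMap.mulRight F B).comp (LinearMap.mulLeft F A)

@[simp] theorem sandwich_apply (A B M : Matrix ι ι F) : sandwich A B M = A * M * B := rfl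

theorem trace_sandwich (A B : Matrix ι ι F) :
    LinearMap.trace F (Matrix ι ι F) (sandwich A B) = Matrix.trace A * Matrix.trace B := by
  rw [LinearMap.trace_eq_matrix_trace F (Matrix.stdBasis F ι ι), Matrix.trace, Matrix.trace, Matrix.trace,
    Finset.sum_mul_sum, Fintype.sum_prod_type]
  refine Finset.sum_congr rfl fun i _ => Finset.sum_congr rfl fun j _ => ?_
  simp [LinearMap.toMatrix_apply, Matrix.stdBasis, Matrix.mul_apply, Pi.single_apply, apply_ite, ite_apply]

section

variable (hR : IsPauli R) (hy : y ∈ Subgroup.normalizer (R : Set (GL ι F)))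
include hR

theorem conj_rep [Nonempty ι] (q : R ⧸ Subgroup.center R) :
    ∃ s : F, s ≠ 0 ∧ (y : Matrix ι ι F) * rep R q * ((y⁻¹ : GL ι F) : Matrix ι ι F) =
      s • rep R (lineMap hy q) := by
  obtain ⟨c, hc, h⟩ := eq_smul_rep hR (conjR hy q.out)
  refine ⟨c, hc, ?_⟩
  rw [← QuotientGroup.out_eq' q, lineMap_mk]
  simpa [rep, conjR, QuotientGroup.out_eq'] using h

variable {r : ℕ} [Fact r.Prime] {c : F} (hyr : ((y ^ r : GL ι F) : Matrix ι ι F) = c • 1)
include hyr

theorem lineMap_pow_eq_one : lineMap hy ^ r = 1 := by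
  refine MulEquiv.ext fun q => ?_
  obtain ⟨x, rfl⟩ := QuotientGroup.mk_surjective q
  rw [lineMap_pow, MulAut.one_apply]
  congr 1
  refine Subtype.ext ?_
  show y ^ r * x * (y ^ r)⁻¹ = x
  have : y ^ r * (x : GL ι F) = x * y ^ r := Units.ext (by simp only [Units.val_mul, hyr]; simp)
  rw [this, mul_inv_cancel_right]

/-- An element fixes a line only by centralising it. -/
theorem commute_of_mem_fixedLines [Nonempty ι] (hr2 : r ≠ 2) {q : R ⧸ Subgroup.center R}
    (hq : q ∈ fixedLines hy) : (y : Matrix ι ι F) * rep R q = rep R q * y := by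
  set Y := (y : Matrix ι ι F) with hY
  set Y' := ((y⁻¹ : GL ι F) : Matrix ι ι F) with hY'
  set B := rep R q with hB
  have hYY : Y' * Y = 1 := Units.inv_mul _
  obtain ⟨s, -, hs⟩ := conj_rep hR hy q
  rw [mem_fixedLines.1 hq] at hs
  have h1 : Y * B = s • (B * Y) := by
    calc Y * B = Y * B * Y' * Y := by rw [mul_assoc _ Y', hYY, mul_one]
      _ = _ := by rw [hs, Matrix.smul_mul]
  have hpow : ∀ k : ℕ, ((y ^ k : GL ι F) : Matrix ι ι F) * B = s ^ k • (B * ((y ^ k : GL ι F) : Matrix ι ι F)) := by
    intro k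
    induction k with
    | zero => simp
    | succ k ih =>
      rw [pow_succ', Units.val_mul, mul_assoc, ih, Matrix.mul_smul, ← mul_assoc, h1, Matrix.smul_mul, smul_smul,
        pow_succ, mul_assoc]
  obtain ⟨i⟩ := ‹Nonempty ι›
  have hcne : c ≠ 0 := fun h0 => (y ^ r).ne_zero (by rw [hyr, h0, zero_smul])
  have hBne : B ≠ 0 := (((q.out : R) : GL ι F)).ne_zero
  have hsr : s ^ r = 1 := by
    have h := hpow r
    simp only [hyr, Matrix.smul_mul, one_mul, Matrix.mul_smul, mul_one, smul_smul] at h
    have h' : (s ^ r * c - c) • B = 0 := by rw [sub_smul, ← h, sub_self]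
    rcases smul_eq_zero.1 h' with h' | h'
    · exact mul_right_cancel₀ hcne (by rw [one_mul]; exact sub_eq_zero.1 h')
    · exact absurd h' hBne
  obtain ⟨e, he, hBB⟩ := rep_sq hR q
  have hs2 : s ^ 2 = 1 := by
    have h : Y * (B * B) = s ^ 2 • (B * B * Y) := by
      rw [← mul_assoc, h1, Matrix.smul_mul, mul_assoc, h1, Matrix.mul_smul, smul_smul, ← mul_assoc, sq]
    rw [hBB] at h
    simp only [Matrix.mul_smul, mul_one, Matrix.smul_mul, one_mul, smul_smul] at h
    have h' : (s ^ 2 * e - e) • Y = 0 := by rw [sub_smul, ← h, sub_self]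
    rcases smul_eq_zero.1 h' with h' | h'
    · exact mul_right_cancel₀ he (by rw [one_mul]; exact sub_eq_zero.1 h')
    · exact absurd h' y.ne_zero
  obtain ⟨k, hk⟩ := (Fact.out : r.Prime).odd_of_ne_two hr2
  rw [hk, pow_succ, pow_mul, hs2, one_pow, one_mul] at hsr
  rw [h1, hsr, one_smul]

theorem scalar_of_fixedLines_eq_top [Nonempty ι] (hr2 : r ≠ 2) (h : fixedLines hy = ⊤) :
    ∃ d : F, (y : Matrix ι ι F) = d • 1 := by
  refine hR.centraliser_scalar ?_
  rintro _ ⟨x, hx, rfl⟩
  obtain ⟨d, -, hd⟩ := eq_smul_rep hR ⟨x, hx⟩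
  have hd' : (x : Matrix ι ι F) = d • rep R _ := hd
  show (y : Matrix ι ι F) * (x : Matrix ι ι F) = (x : Matrix ι ι F) * y
  rw [hd', Matrix.mul_smul, Matrix.smul_mul,
    commute_of_mem_fixedLines hR hy hyr hr2 (h ▸ Subgroup.mem_top _)]

theorem card_fixedLines_modEq [Finite F] :
    Nat.card (R ⧸ Subgroup.center R) ≡ Nat.card (fixedLines hy) [MOD r] := by
  set G := Subgroup.zpowers (lineMap hy)
  have hG : IsPGroup r G := by
    have hdvd : orderOf (lineMap hy) ∣ r ^ 1 := by
      rw [pow_one]; exact orderOf_dvd_of_pow_eq_one (lineMap_pow_eq_one hR hy hyr)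
    obtain ⟨k, -, hk⟩ := (Nat.dvd_prime_pow (Fact.out : r.Prime)).1 hdvd
    exact IsPGroup.of_card (n := k) (by rw [Nat.card_zpowers, hk])
  have h := hG.card_modEq_card_fixedPoints (R ⧸ Subgroup.center R)
  convert h using 1
  refine Nat.card_congr (Equiv.subtypeEquivRight fun q => ?_)
  rw [mem_fixedLines]
  refine ⟨fun hq g => ?_, fun hq => hq ⟨_, Subgroup.mem_zpowers _⟩⟩
  obtain ⟨_, n, rfl⟩ := g
  exact (Subgroup.zpow_mem (MulAction.stabilizer (MulAut (R ⧸ Subgroup.center R)) q) hq n)

/-- The product of the traces of `y` and `y⁻¹` is the number of fixed lines. -/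
theorem trace_mul_trace [Nonempty ι] [Finite F] (hr2 : r ≠ 2) (h2 : (2 : F) ≠ 0)
    (hne : (Fintype.card ι : F) ≠ 0) :
    Matrix.trace (y : Matrix ι ι F) * Matrix.trace ((y⁻¹ : GL ι F) : Matrix ι ι F) =
      (Nat.card (fixedLines hy) : F) := by
  classical
  haveI : Fintype (R ⧸ Subgroup.center R) := Fintype.ofFinite _
  rw [← trace_sandwich, LinearMap.trace_eq_matrix_trace F (repBasis hR h2 hne), Matrix.trace]
  rw [Nat.card_eq_fintype_card, Fintype.card_of_subtype
    (Finset.univ.filter (fun q => lineMap hy q = q)) (fun q => by simp [mem_fixedLines]),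
    ← Finset.sum_boole]
  refine Finset.sum_congr rfl fun q _ => ?_
  have hb : ∀ p, repBasis hR h2 hne p = rep R p := fun p => Module.Basis.mk_apply _ _ p
  rw [Matrix.diag_apply, LinearMap.toMatrix_apply, hb, sandwich_apply]
  by_cases hq : lineMap hy q = q
  · rw [if_pos hq, commute_of_mem_fixedLines hR hy hyr hr2 hq, mul_assoc, Units.mul_inv, mul_one, ← hb]
    simp
  · obtain ⟨s, -, hs⟩ := conj_rep hR hy q
    rw [if_neg hq, hs, ← hb, map_smul, Module.Basis.repr_self, Finsupp.smul_apply,
      Finsupp.single_eq_of_ne (Ne.symm hq), smul_zero]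

/-- The commutant is no larger than the set of orbits on lines. -/
theorem exists_commutant_bound [Nonempty ι] [Finite F] (h2 : (2 : F) ≠ 0)
    (hne : (Fintype.card ι : F) ≠ 0) :
    ∃ o : ℕ, r * o ≤ Nat.card (R ⧸ Subgroup.center R) + (r - 1) * Nat.card (fixedLines hy) ∧
      Module.finrank F (LinearMap.ker (LinearMap.mulLeft F (y : Matrix ι ι F) -
        LinearMap.mulRight F (y : Matrix ι ι F))) ≤ o := by
  classical
  by_cases hone : lineMap hy = 1
  · refine ⟨Nat.card (R ⧸ Subgroup.center R), le_of_eq ?_, ?_⟩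
    · have : fixedLines hy = ⊤ := by
        refine (Subgroup.eq_top_iff' _).2 fun q => ?_
        rw [mem_fixedLines, hone, MulAut.one_apply]
      rw [this, Subgroup.card_top]
      conv_lhs => rw [show r = 1 + (r - 1) by have := (Fact.out : r.Prime).pos; omega, add_mul, one_mul]
    · haveI : Fintype (R ⧸ Subgroup.center R) := Fintype.ofFinite _
      rw [Nat.card_eq_fintype_card, ← Module.finrank_eq_card_basis (repBasis hR h2 hne)]
      exact Submodule.finrank_le _
  set σ := lineMap hy with hσ
  set G := Subgroup.zpowers σ with hG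
  haveI : Fintype (R ⧸ Subgroup.center R) := Fintype.ofFinite _
  haveI : Fintype G := Fintype.ofFinite _
  have hGr : Fintype.card G = r := by
    rw [← Nat.card_eq_fintype_card, Nat.card_zpowers]
    exact orderOf_eq_prime (lineMap_pow_eq_one hR hy hyr) hone
  refine ⟨Nat.card (MulAction.orbitRel.Quotient G (R ⧸ Subgroup.center R)), le_of_eq ?_, ?_⟩
  · have hburn := MulAction.sum_card_fixedBy_eq_card_orbits_mul_card_group G (R ⧸ Subgroup.center R)
    rw [hGr, ← Finset.add_sum_erase _ _ (Finset.mem_univ (1 : G)),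
      Finset.sum_congr rfl (g := fun _ => Nat.card (fixedLines hy)) fun g hg => ?_, Finset.sum_const,
      Finset.card_erase_of_mem (Finset.mem_univ _), Finset.card_univ, hGr, smul_eq_mul] at hburn
    · rw [mul_comm, Nat.card_eq_fintype_card (α := MulAction.orbitRel.Quotient G _), ← hburn]
      congr 1
      rw [← Nat.card_eq_fintype_card]
      exact Nat.card_congr (Equiv.subtypeUnivEquiv fun q => one_smul _ q)
    · rw [← Nat.card_eq_fintype_card]
      refine Nat.card_congr (Equiv.subtypeEquivRight fun q => ?_)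
      have hg1 : g ≠ 1 := (Finset.mem_erase.1 hg).1
      haveI : Fact (Nat.card G).Prime := ⟨by rw [Nat.card_eq_fintype_card, hGr]; exact Fact.out⟩
      have htop : Subgroup.zpowers g = ⊤ :=
        ((Subgroup.zpowers g).eq_bot_or_eq_top_of_prime_card).resolve_left
          (by simpa [Subgroup.zpowers_eq_bot] using hg1)
      rw [MulAction.mem_fixedBy, mem_fixedLines]
      refine ⟨fun hgq => ?_, fun hq => ?_⟩
      · have hσG : (⟨σ, Subgroup.mem_zpowers σ⟩ : G) ∈ Subgroup.zpowers g := htop ▸ Subgroup.mem_top _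
        obtain ⟨n, hn⟩ := hσG
        have h' := Subgroup.zpow_mem (MulAction.stabilizer G q) hgq n
        rw [show g ^ n = (⟨σ, Subgroup.mem_zpowers σ⟩ : G) from hn] at h'
        exact h'
      · obtain ⟨n, hn⟩ := g.2
        show (g : MulAut (R ⧸ Subgroup.center R)) q = q
        rw [← hn]
        exact Subgroup.zpow_mem (MulAction.stabilizer (MulAut (R ⧸ Subgroup.center R)) q) hq n
  · set K := LinearMap.ker (LinearMap.mulLeft F (y : Matrix ι ι F) - LinearMap.mulRight F (y : Matrix ι ι F))
    haveI : Fintype (MulAction.orbitRel.Quotient G (R ⧸ Subgroup.center R)) := Fintype.ofFinite _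
    set b := repBasis hR h2 hne
    have hb : ∀ p, b p = rep R p := fun p => Module.Basis.mk_apply _ _ p
    choose s hs0 hs using conj_rep hR hy
    have hcoef : ∀ M ∈ K, ∀ q, b.repr M (σ q) = s q * b.repr M q := by
      intro M hM q
      have hcomm : (y : Matrix ι ι F) * M = M * y := sub_eq_zero.1 hM
      have hfix : sandwich (y : Matrix ι ι F) ((y⁻¹ : GL ι F) : Matrix ι ι F) M = M := by
        rw [sandwich_apply, hcomm, mul_assoc, Units.mul_inv, mul_one]
      have h := congrArg (fun M' => b.repr M' (σ q))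
        ((congrArg (sandwich (y : Matrix ι ι F) ((y⁻¹ : GL ι F) : Matrix ι ι F)) (b.sum_repr M)).trans hfix)
      simp only [map_sum, map_smul, sandwich_apply, hb, hs, Finsupp.coe_finsetSum, Finset.sum_apply,
        Finsupp.smul_apply, smul_eq_mul] at h
      rw [← h, Finset.sum_eq_single q]
      · rw [← hb, Module.Basis.repr_self, Finsupp.single_eq_same]; ring
      · intro p _ hp
        rw [← hb, Module.Basis.repr_self, Finsupp.single_eq_of_ne (fun e => hp (σ.injective e.symm)), mul_zero,
          mul_zero]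
      · exact fun h => absurd (Finset.mem_univ q) h
    let L : K →ₗ[F] (MulAction.orbitRel.Quotient G (R ⧸ Subgroup.center R) → F) :=
      { toFun := fun M o => b.repr (M : Matrix ι ι F) (Quotient.out o)
        map_add' := fun M N => by funext o; simp
        map_smul' := fun a M => by funext o; simp }
    have hinj : Function.Injective L := by
      rw [injective_iff_map_eq_zero]
      intro M hM
      refine Subtype.ext (b.repr.injective ?_)
      ext q
      simp only [Submodule.coe_zero, map_zero, Finsupp.coe_zero, Pi.zero_apply]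
      set o : MulAction.orbitRel.Quotient G (R ⧸ Subgroup.center R) := Quotient.mk'' q with ho
      obtain ⟨⟨g, hg⟩, hgq⟩ : ∃ g : G, g • Quotient.out o = q := by
        have h1 : MulAction.orbitRel G (R ⧸ Subgroup.center R) q (Quotient.out o) :=
          Quotient.exact (Quotient.out_eq o).symm
        exact h1
      obtain ⟨n, hn⟩ := (Subgroup.mem_zpowers_iff (g := σ)).1 hg
      obtain ⟨k, hk⟩ : ∃ k : ℕ, g = σ ^ k := by
        obtain ⟨k, hk⟩ := (Submonoid.mem_powers_iff _ _).1 (mem_powers_iff_mem_zpowers.2 hg)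
        exact ⟨k, hk.symm⟩
      have hz : ∀ j : ℕ, b.repr (M : Matrix ι ι F) ((σ ^ j) (Quotient.out o)) = 0 := by
        intro j
        induction j with
        | zero => exact congrFun hM o
        | succ j ih => rw [pow_succ', MulAut.mul_apply, hcoef _ M.2, ih, mul_zero]
      rw [← hgq]
      show b.repr (M : Matrix ι ι F) (g (Quotient.out o)) = 0
      rw [hk, hz]
    refine (LinearMap.finrank_le_finrank_of_injective hinj).trans ?_
    rw [Module.finrank_fintype_fun_eq_card, Nat.card_eq_fintype_card]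

end

end CfsgLib.PauliFour
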