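import Cfsg.Agent.Lib.PauliFour.Elements

/-!
Elements of order two, three and five modulo scalars of a classical group in dimension four with a fixed point
on the cosets of the normaliser of a Pauli group.
-/

set_option autoImplicit false
set_option linter.unusedSectionVars false
set_option linter.style.haveILetI false

namespace CfsgLib.PauliFour

open scoped Matrix
open Cfsg.Geo CfsgLib.SmallDim Polynomial

variable {F : Type*} [Field F] [Finite F] {p : ℕ} {G R : Subgroup (GL (Fin 4) F)}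

local notation "M₄" => Matrix (Fin 4) (Fin 4) F
local notation "K" => AlgebraicClosure F
local notation "φ" => algebraMap F (AlgebraicClosure F)
local notation "N[" R "]" => Subgroup.normalizer ((R : Subgroup (GL (Fin 4) F)) : Set (GL (Fin 4) F))

/-- The group in which classes are taken: determinant one, closed classes, scalars of order four. -/
structure Ambient (p : ℕ) (G R : Subgroup (GL (Fin 4) F)) : Prop where
  odd : Odd p
  two : (2 : F) ≠ 0
  pauli : IsPauli R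
  det : ∀ x ∈ G, (x : M₄).det = 1
  le : R ≤ G
  scalar : ∀ c : F, c ^ 4 = 1 → ∃ x : R, mt x = c • 1
  sqrt : ∃ i : F, i * i = -1
  conj : ∀ x ∈ G, ∀ y ∈ G, ∀ n : ℕ, n.Coprime p → x ^ n = 1 → y ^ n = 1 →
    (x : M₄).charpoly = (y : M₄).charpoly → ∃ g ∈ G, g⁻¹ * x * g = y
  memOdd : ∀ y ∈ N[R], (y : M₄).det = 1 → ∀ r : ℕ, Odd r → y ^ r = 1 → y ∈ G

variable (H : Ambient p G R)
include H

theorem Ambient.exists_frame' : ∃ (i : F) (ie : R) (g : Fin 5 → R), i * i = -1 ∧ mt ie = i • 1 ∧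
    Anti (fun k => mt (g k)) ∧
    Subgroup.closure (Set.range fun k => (QuotientGroup.mk (g k) : R ⧸ Subgroup.center R)) = ⊤ := by
  obtain ⟨i, hi⟩ := H.sqrt
  obtain ⟨ie, hie⟩ := H.scalar i (by
    rw [show i ^ 4 = (i * i) * (i * i) by ring, hi]; norm_num)
  obtain ⟨g, hΓ, hgen⟩ := exists_frame_gl H.pauli hi hie (by simp) H.two
  exact ⟨i, ie, g, hi, hie, hΓ, hgen⟩

/-- Fixed points of involutions modulo scalars. -/
theorem Ambient.fixed_two (href : ∀ x ∈ G, ∀ t : F, Matrix.trace (x : M₄) = 2 * t →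
      (x : M₄) * x = (t * t) • 1 → (t * t) * (t * t) = -1 → ∀ h ∈ N[R], (h : M₄) * h = 1 →
      Matrix.trace (h : M₄) = 2 → (h : M₄).det = -1 → ∀ y : GL (Fin 4) F, (y : M₄) = t • (h : M₄) → y ∈ G)
    {x : GL (Fin 4) F} (hx : x ∈ G) {z : F} (hz : (x : M₄) * x = z • 1) (hns : ∀ c : F, (x : M₄) ≠ c • 1) :
    ∃ g ∈ G, g⁻¹ * x * g ∈ N[R] := by
  obtain ⟨i, ie, g, hi, hie, hΓ, hgen⟩ := H.exists_frame'
  have h2 := H.two
  have hz4 : z ^ 4 = 1 := by
    have h := congrArg Matrix.det hz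
    rw [Matrix.det_mul, H.det x hx, one_mul, Matrix.det_smul, Matrix.det_one, mul_one, Fintype.card_fin] at h
    exact h.symm
  have h8 : ∀ w : GL (Fin 4) F, (w : M₄) * w = z • 1 → w ^ 8 = 1 := fun w hw => Units.ext (by
    rw [Units.val_pow_eq_pow_val, show 8 = 2 * 4 by rfl, pow_mul, sq, hw, _root_.smul_pow, one_pow, hz4, one_smul]
    rfl)
  have hco : (8 : ℕ).Coprime p := by
    rw [show (8 : ℕ) = 2 ^ 3 by rfl]
    exact Nat.Coprime.pow_left 3 (Nat.coprime_two_left.2 H.odd)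
  rcases sq_trace_cases h2 hz (H.det x hx) hns with ⟨hzz, ht⟩ | ⟨hzz, t, htz, ht⟩
  · obtain ⟨a, hat, ha⟩ : ∃ a : R, Matrix.trace (mt a) = 0 ∧ mt a * mt a = z • 1 := by
      have hs : mt (g 0) * mt (g 0) = 1 := hΓ.sq 0
      rcases mul_self_eq_one_iff.1 hzz with rfl | rfl
      · exact ⟨g 0, trace_gen H.pauli hi hie h2 hΓ hgen 0, by rw [hs, one_smul]⟩
      · refine ⟨ie * g 0, ?_, ?_⟩
        · rw [mt_mul, hie, Matrix.smul_mul, one_mul, Matrix.trace_smul, trace_gen H.pauli hi hie h2 hΓ hgen,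
            smul_zero]
        · rw [mt_mul, hie, Matrix.smul_mul, one_mul, Matrix.smul_mul, Matrix.mul_smul, smul_smul, hi, hs]
    have hc := charpoly_eq_of_sq h2 hz (y := (a : GL (Fin 4) F)) ha (ht.trans hat.symm)
      ((H.det x hx).trans (H.det _ (H.le a.2)).symm)
    obtain ⟨k, hk, hke⟩ := H.conj x hx a (H.le a.2) 8 hco (h8 x hz) (h8 _ ha) hc
    exact ⟨k, hk, hke ▸ Subgroup.le_normalizer a.2⟩
  · obtain ⟨h, hN, hh, hth, hdh⟩ := exists_reflection H.pauli hi hie h2 hΓ hgen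
    have ht0 : t ≠ 0 := fun h0 => by
      rw [← htz, h0, mul_zero, mul_zero] at hzz
      exact one_ne_zero (α := F) (by linear_combination hzz)
    obtain ⟨s, hs⟩ : ∃ u : GL (Fin 4) F, (u : M₄) = t • 1 :=
      exists_unit_of_mul (N := 1) ht0 (by rw [mul_one])
    have hy : ((s * h : GL (Fin 4) F) : M₄) = t • (h : M₄) := by
      rw [Units.val_mul, hs, Matrix.smul_mul, one_mul]
    have hyG := href x hx t ht (by rw [htz]; exact hz) (by rw [htz]; exact hzz) h hN hh hth hdh _ hy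
    have hysq : ((s * h : GL (Fin 4) F) : M₄) * (s * h : GL (Fin 4) F) = z • 1 := by
      rw [hy, Matrix.smul_mul, Matrix.mul_smul, smul_smul, hh, htz]
    have hc := charpoly_eq_of_sq h2 hz hysq (by
      rw [ht, hy, Matrix.trace_smul, hth, smul_eq_mul, mul_comm]) ((H.det x hx).trans (H.det _ hyG).symm)
    obtain ⟨k, hk, hke⟩ := H.conj x hx _ hyG 8 hco (h8 x hz) (h8 _ hysq) hc
    exact ⟨k, hk, hke ▸ mul_mem (mem_normalizer_of_scalar hs) hN⟩

/-- Removing the scalar from an element with scalar power. -/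
theorem Ambient.exists_normalised {x : GL (Fin 4) F} (hx : x ∈ G) {r k : ℕ} (hk : 4 ∣ r * k + 1) {z : F}
    (hz : ((x ^ r : GL (Fin 4) F) : M₄) = z • 1) (hns : ∀ c : F, (x : M₄) ≠ c • 1) :
    ∃ x' ∈ G, x' ^ r = 1 ∧ (∀ c : F, (x' : M₄) ≠ c • 1) ∧
      ∀ g, g⁻¹ * x' * g ∈ N[R] → g⁻¹ * x * g ∈ N[R] := by
  have hz4 : z ^ 4 = 1 := by
    have h := congrArg Matrix.det hz
    rw [Units.val_pow_eq_pow_val, Matrix.det_pow, H.det x hx, one_pow, Matrix.det_smul, Matrix.det_one, mul_one,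
      Fintype.card_fin] at h
    exact h.symm
  obtain ⟨w, hw'⟩ := H.scalar (z ^ k) (by rw [← pow_mul, mul_comm, pow_mul, hz4, one_pow])
  have hw : ((w : GL (Fin 4) F) : M₄) = z ^ k • (1 : M₄) := hw'
  have hwc : ∀ a : GL (Fin 4) F, (w : GL (Fin 4) F) * a = a * w := fun a => Units.ext (by simp [hw])
  refine ⟨w * x, G.mul_mem (H.le w.2) hx, Units.ext ?_, fun c hc => ?_, fun g hg => ?_⟩
  · rw [Units.val_pow_eq_pow_val, Units.val_mul, hw, Matrix.smul_mul, one_mul, _root_.smul_pow,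
      ← Units.val_pow_eq_pow_val, hz, smul_smul, Units.val_one, ← pow_mul, mul_comm k r, ← pow_succ]
    obtain ⟨m, hm⟩ := hk
    rw [hm, pow_mul, hz4, one_pow, one_smul]
  · refine hns ((z ^ k)⁻¹ * c) ?_
    rw [Units.val_mul, hw, Matrix.smul_mul, one_mul] at hc
    have hzk : z ^ k ≠ 0 := pow_ne_zero k fun h => by simp [h] at hz4
    rw [← smul_smul, ← hc, smul_smul, inv_mul_cancel₀ hzk, one_smul]
  · have e : g⁻¹ * x * g = (w : GL (Fin 4) F)⁻¹ * (g⁻¹ * (w * x) * g) := by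
      rw [eq_inv_mul_iff_mul_eq, ← mul_assoc, ← mul_assoc, hwc g⁻¹]
      group
    rw [e]
    exact mul_mem (inv_mem (Subgroup.le_normalizer w.2)) hg

/-- Fixed points of elements of order three modulo scalars. -/
theorem Ambient.fixed_three (hp : ∀ k : ℕ, 0 < k → k ≤ 4 → (k : F) ≠ 0) (h3 : Nat.Coprime 3 p)
    (htr : ∀ x ∈ G, x ^ 3 = 1 → Matrix.trace ((x⁻¹ : GL (Fin 4) F) : M₄) = Matrix.trace (x : M₄))
    {x : GL (Fin 4) F} (hx : x ∈ G) {z : F} (hz : ((x ^ 3 : GL (Fin 4) F) : M₄) = z • 1)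
    (hns : ∀ c : F, (x : M₄) ≠ c • 1) : ∃ g ∈ G, g⁻¹ * x * g ∈ N[R] := by
  obtain ⟨i, ie, g, hi, hie, hΓ, hgen⟩ := H.exists_frame'
  obtain ⟨x', hx', hx3, hns', hback⟩ := H.exists_normalised hx (k := 1) ⟨1, rfl⟩ hz hns
  have ht := htr x' hx' hx3
  obtain ⟨y, hyN, hy3, hty, htyi⟩ := exists_order_three H.pauli hi hie H.two hΓ hgen
    (Matrix.trace (x' : M₄)) (three_trace_cases hp hx3 ht hns')
  haveI : NeZero ((3 : ℕ) : K) := ⟨natCast_ne_zero_K (hp 3 (by norm_num) (by norm_num))⟩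
  obtain ⟨ω, hω⟩ := HasEnoughRootsOfUnity.exists_primitiveRoot K 3
  obtain ⟨b, -, -, -, hdy, -⟩ := exists_three_data hp hy3 (htyi.trans hty.symm) hω
  have hyG := H.memOdd y hyN hdy 3 (by decide) hy3
  obtain ⟨k, hk, hke⟩ := H.conj x' hx' y hyG 3 h3 hx3 hy3
    (charpoly_eq_of_three hp hx3 hy3 ht (htyi.trans hty.symm) hty.symm)
  exact ⟨k, hk, hback k (hke ▸ hyN)⟩

/-- Fixed points of elements of order five modulo scalars. -/
theorem Ambient.fixed_five (h5 : (5 : F) ≠ 0) (h5p : Nat.Coprime 5 p) {e : ℕ} (he : e % 5 = 2 ∨ e % 5 = 3)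
    (hinv : ∀ x ∈ G, ∀ m : Multiset K, (x : M₄).charpoly.map φ = (m.map fun a => X - C a).prod →
      ((x⁻¹ : GL (Fin 4) F) : M₄).charpoly.map φ = ((m.map fun a => a⁻¹).map fun a => X - C a).prod →
      (∀ a ∈ m, a ^ 5 = 1) → ∀ a ∈ m, a ^ e ∈ m)
    {x : GL (Fin 4) F} (hx : x ∈ G) {z : F} (hz : ((x ^ 5 : GL (Fin 4) F) : M₄) = z • 1)
    (hns : ∀ c : F, (x : M₄) ≠ c • 1) : ∃ g ∈ G, g⁻¹ * x * g ∈ N[R] := by
  obtain ⟨i, ie, g, hi, hie, hΓ, hgen⟩ := H.exists_frame'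
  obtain ⟨x', hx', hx5, hns', hback⟩ := H.exists_normalised hx (k := 3) ⟨4, rfl⟩ hz hns
  obtain ⟨y, hyN, hy5, hyns, hdy⟩ := exists_order_five_gl H.pauli hi hie H.two hΓ hgen
  have hyG := H.memOdd y hyN hdy 5 (by decide) hy5
  have hc : (x' : M₄).charpoly = (y : M₄).charpoly := Polynomial.map_injective φ (φ).injective
    ((charpoly_of_five h5 hx5 hns' he (hinv x' hx')).trans
      (charpoly_of_five h5 hy5 hyns he (hinv y hyG)).symm)
  obtain ⟨k, hk, hke⟩ := H.conj x' hx' y hyG 5 h5p hx5 hy5 hc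
  exact ⟨k, hk, hback k (hke ▸ hyN)⟩

end CfsgLib.PauliFour
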