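import Cfsg.Agent.Lib.PauliFour.Fixed

/-!
Elements of odd prime order modulo scalars normalising a Pauli group in dimension four.
-/

set_option autoImplicit false
set_option linter.unusedSectionVars false
set_option linter.style.haveILetI false

namespace CfsgLib.PauliFour

open scoped Matrix
open Cfsg.Geo CfsgLib.SmallDim

variable {F : Type*} [Field F] [Finite F] {ι : Type} [Fintype ι] [DecidableEq ι]
  {R : Subgroup (GL ι F)} {y : GL ι F}

theorem card_ne_zero_of_four (hcard : Fintype.card ι = 4) (h2 : (2 : F) ≠ 0) : (Fintype.card ι : F) ≠ 0 := by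
  rw [hcard]
  have : ((4 : ℕ) : F) = 2 * 2 := by push_cast; norm_num
  rw [this]
  exact mul_ne_zero h2 h2

variable (hR : IsPauli R) (hcard : Fintype.card ι = 4) (h2 : (2 : F) ≠ 0)
  (hy : y ∈ Subgroup.normalizer (R : Set (GL ι F))) {r : ℕ} [Fact r.Prime] (hr2 : r ≠ 2) {c : F}
  (hyr : ((y ^ r : GL ι F) : Matrix ι ι F) = c • 1) (hns : ∀ d : F, (y : Matrix ι ι F) ≠ d • 1)
include hR hcard h2

theorem card_lines_four : Nat.card (R ⧸ Subgroup.center R) = 16 := by
  haveI : Nonempty ι := Fintype.card_pos_iff.1 (by omega)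
  rw [card_lines hR h2 (card_ne_zero_of_four hcard h2), hcard]

include hyr hr2 in
/-- Not exactly one nontrivial line is fixed by an element of order seven. -/
theorem seven_fixed_ne_two (h7 : r = 7) : Nat.card (fixedLines hy) ≠ 2 := by
  classical
  haveI : Nonempty ι := Fintype.card_pos_iff.1 (by omega)
  intro hf
  obtain ⟨a, ha⟩ : ∃ a : fixedLines hy, a ≠ 1 := by
    haveI : Nontrivial (fixedLines hy) := Finite.one_lt_card_iff_nontrivial.1 (by omega)
    exact exists_ne 1
  set x₀ : R := (a : R ⧸ Subgroup.center R).out with hx₀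
  have hx₀c : x₀ ∉ Subgroup.center R := fun h => ha (Subtype.ext (by
    rw [← QuotientGroup.out_eq' (a : R ⧸ Subgroup.center R)]
    exact (QuotientGroup.eq_one_iff _).2 h))
  set C := Subgroup.centralizer ({x₀} : Set R) with hC
  have hmem : ∀ x : R, x ∈ C ↔
      ((x : GL ι F) : Matrix ι ι F) * ((x₀ : GL ι F) : Matrix ι ι F) =
        ((x₀ : GL ι F) : Matrix ι ι F) * ((x : GL ι F) : Matrix ι ι F) := fun x => by
    rw [hC, Subgroup.mem_centralizer_singleton_iff]
    exact ⟨fun h => congrArg (fun w : R => ((w : GL ι F) : Matrix ι ι F)) h,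
      fun h => Subtype.ext (Units.ext h)⟩
  have hidx : C.index = 2 := by
    rw [Subgroup.index_eq_two_iff]
    obtain ⟨w, hw⟩ : ∃ w : R, ¬ w ∈ C := by
      by_contra! hall
      exact hx₀c (Subgroup.mem_center_iff.2 fun w => by
        have := hall w
        rw [hC, Subgroup.mem_centralizer_singleton_iff] at this
        exact this)
    refine ⟨w, fun b => ?_⟩
    have hanti : ∀ u : R, u ∉ C →
        ((u : GL ι F) : Matrix ι ι F) * ((x₀ : GL ι F) : Matrix ι ι F) =
          -(((x₀ : GL ι F) : Matrix ι ι F) * ((u : GL ι F) : Matrix ι ι F)) := fun u hu =>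
      (hR.comm u u.2 x₀ x₀.2).resolve_left fun h => hu ((hmem u).2 h)
    by_cases hb : b ∈ C
    · exact Or.inr ⟨hb, fun h => hw (by simpa using C.mul_mem (C.inv_mem hb) h)⟩
    · refine Or.inl ⟨(hmem _).2 ?_, hb⟩
      simp only [Subgroup.coe_mul, Units.val_mul]
      rw [mul_assoc, hanti w hw, Matrix.mul_neg, ← mul_assoc, hanti b hb, Matrix.neg_mul, neg_neg, mul_assoc]
  set K := C.map (QuotientGroup.mk' (Subgroup.center R)) with hK
  have hK8 : Nat.card K = 8 := by
    have h1 : K.index = 2 := by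
      rw [hK, Subgroup.index_map_eq _ (QuotientGroup.mk'_surjective _) (by
        rw [QuotientGroup.ker_mk']; exact Subgroup.center_le_centralizer _), hidx]
    have h3 := Subgroup.card_mul_index K
    rw [h1, card_lines_four hR hcard h2] at h3
    omega
  set G := Subgroup.zpowers (lineMap hy) with hG
  have hKσ : ∀ q ∈ K, lineMap hy q ∈ K := by
    rintro _ ⟨x, hx, rfl⟩
    refine ⟨conjR hy x, (hmem _).2 ?_, rfl⟩
    have hyx : y * (x₀ : GL ι F) = x₀ * y := Units.ext (commute_of_mem_fixedLines hR hy hyr hr2 a.2)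
    have hxx : (x : GL ι F) * x₀ = x₀ * x := Units.ext ((hmem x).1 hx)
    have : (conjR hy x : GL ι F) * x₀ = x₀ * conjR hy x := by
      show y * x * y⁻¹ * x₀ = x₀ * (y * x * y⁻¹)
      calc y * x * y⁻¹ * (x₀ : GL ι F) = y * x * (y⁻¹ * (x₀ * y)) * y⁻¹ := by group
        _ = y * (x * x₀) * y⁻¹ := by rw [← hyx]; group
        _ = (y * x₀) * x * y⁻¹ := by rw [hxx]; group
        _ = _ := by rw [hyx]; group
    exact congrArg (fun g : GL ι F => (g : Matrix ι ι F)) this
  let S : SubMulAction G (R ⧸ Subgroup.center R) :=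
    { carrier := K
      smul_mem' := by
        rintro ⟨g, hg⟩ q hq
        obtain ⟨k, rfl⟩ := (Submonoid.mem_powers_iff _ _).1 (mem_powers_iff_mem_zpowers.2 hg)
        show (lineMap hy ^ k) q ∈ K
        induction k with
        | zero => simpa using hq
        | succ k ih => rw [pow_succ', MulAut.mul_apply]; exact hKσ _ (ih (Subgroup.pow_mem _ (Subgroup.mem_zpowers _) _)) }
  have hGp : IsPGroup r G := by
    have hdvd : orderOf (lineMap hy) ∣ r ^ 1 := by
      rw [pow_one]; exact orderOf_dvd_of_pow_eq_one (lineMap_pow_eq_one hR hy hyr)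
    obtain ⟨k, -, hk⟩ := (Nat.dvd_prime_pow (Fact.out : r.Prime)).1 hdvd
    exact IsPGroup.of_card (n := k) (by rw [Nat.card_zpowers, hk])
  have h := hGp.card_modEq_card_fixedPoints S
  have hS : Nat.card S = 8 := by rw [← hK8]; rfl
  have hfix : Nat.card (MulAction.fixedPoints G S) ≤ 2 := by
    rw [← hf]
    refine Nat.card_le_card_of_injective
      (fun q => (⟨(q.1 : R ⧸ Subgroup.center R), mem_fixedLines.2 (congrArg Subtype.val (q.2 ⟨_, Subgroup.mem_zpowers _⟩))⟩ :
        fixedLines hy)) fun q q' hqq => Subtype.ext (Subtype.ext (by simpa using hqq))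
  have hone : (⟨1, K.one_mem⟩ : S) ∈ MulAction.fixedPoints G S := fun g => Subtype.ext (by
    show (g : MulAut (R ⧸ Subgroup.center R)) 1 = 1
    exact map_one _)
  have hq0 : (⟨(a : R ⧸ Subgroup.center R), ⟨x₀, (hmem x₀).2 rfl, QuotientGroup.out_eq' _⟩⟩ : S) ∈
      MulAction.fixedPoints G S := fun g => Subtype.ext (by
    obtain ⟨g, n, rfl⟩ := g
    exact Subgroup.zpow_mem (MulAction.stabilizer (MulAut (R ⧸ Subgroup.center R)) (a : R ⧸ Subgroup.center R))
      (mem_fixedLines.1 a.2) n)
  have h2le : 2 ≤ Nat.card (MulAction.fixedPoints G S) := by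
    haveI : Nontrivial (MulAction.fixedPoints G S) := ⟨⟨⟨_, hone⟩, ⟨_, hq0⟩, fun e => ha (Subtype.ext
      (congrArg (fun z : MulAction.fixedPoints G S => ((z.1 : S) : R ⧸ Subgroup.center R)) e).symm)⟩⟩
    exact Finite.one_lt_card
  rw [hS, h7, show Nat.card (MulAction.fixedPoints G S) = 2 by omega] at h
  exact absurd h (by decide)

include hr2 hyr hns in
theorem fixed_cases : (r = 3 ∧ (Nat.card (fixedLines hy) = 1 ∨ Nat.card (fixedLines hy) = 4)) ∨
    (r = 5 ∧ Nat.card (fixedLines hy) = 1) := by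
  haveI : Nonempty ι := Fintype.card_pos_iff.1 (by omega)
  have hr := (Fact.out : r.Prime)
  have h16 := card_lines_four hR hcard h2
  have hmod := card_fixedLines_modEq hR hy hyr
  rw [h16] at hmod
  have hlt : Nat.card (fixedLines hy) ≠ 16 := fun h => by
    obtain ⟨d, hd⟩ := scalar_of_fixedLines_eq_top hR hy hyr hr2
      ((Subgroup.card_eq_iff_eq_top _).1 (h.trans h16.symm))
    exact hns d hd
  have hdvd : Nat.card (fixedLines hy) ∣ 2 ^ 4 := by
    rw [show 2 ^ 4 = 16 from rfl, ← h16]; exact Subgroup.card_subgroup_dvd_card _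
  obtain ⟨k, hk, hf⟩ := (Nat.dvd_prime_pow Nat.prime_two).1 hdvd
  have hrd : r ∣ 16 - Nat.card (fixedLines hy) :=
    (Nat.modEq_iff_dvd' (hf ▸ (Nat.pow_le_pow_right two_pos hk))).1 hmod.symm
  interval_cases k <;> rw [hf] at hrd hlt ⊢ <;> (try norm_num at hrd hlt ⊢)
  · have : r ∈ Nat.primeFactors 15 := Nat.mem_primeFactors.2 ⟨hr, hrd, by norm_num⟩
    rw [show Nat.primeFactors 15 = {3, 5} from by decide +kernel] at this
    simpa using this
  · have : r ∈ Nat.primeFactors 14 := Nat.mem_primeFactors.2 ⟨hr, hrd, by norm_num⟩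
    rw [show Nat.primeFactors 14 = {2, 7} from by decide +kernel] at this
    simp only [Finset.mem_insert, Finset.mem_singleton] at this
    rcases this with h | h
    · exact hr2 h
    · exact seven_fixed_ne_two hR hcard h2 hy hr2 hyr h (by simpa using hf)
  · have : r ∈ Nat.primeFactors 12 := Nat.mem_primeFactors.2 ⟨hr, hrd, by norm_num⟩
    rw [show Nat.primeFactors 12 = {2, 3} from by decide +kernel] at this
    simp only [Finset.mem_insert, Finset.mem_singleton] at this
    exact this.resolve_left hr2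
  · have : r ∈ Nat.primeFactors 8 := Nat.mem_primeFactors.2 ⟨hr, hrd, by norm_num⟩
    rw [show Nat.primeFactors 8 = {2} from by decide +kernel] at this
    exact hr2 (Finset.mem_singleton.1 this)
  · exact absurd (by norm_num : (2 : ℕ) ^ 4 = 16) hlt

include hy hr2 hyr hns in
/-- No element with a rank one deviation from a scalar normalises the group. -/
theorem not_rank_one (a : F) (u φ : ι → F) (hform : (y : Matrix ι ι F) = a • 1 + Matrix.vecMulVec u φ) :
    False := by
  classical
  haveI : Nonempty ι := Fintype.card_pos_iff.1 (by omega)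
  have h16 := card_lines_four hR hcard h2
  obtain ⟨o, ho, hK⟩ := exists_commutant_bound hR hy hyr h2 (card_ne_zero_of_four hcard h2)
  rw [h16] at ho
  have ho8 : o ≤ 8 := by
    rcases fixed_cases hR hcard h2 hy hr2 hyr hns with ⟨hr3, hf | hf⟩ | ⟨hr5, hf⟩
    · rw [hf, hr3] at ho; omega
    · rw [hf, hr3] at ho; omega
    · rw [hf, hr5] at ho; omega
  set D := LinearMap.mulLeft F (y : Matrix ι ι F) - LinearMap.mulRight F (y : Matrix ι ι F)
  let Φ : (ι → F) × (ι → F) →ₗ[F] Matrix ι ι F :=
    { toFun := fun z => Matrix.vecMulVec u z.1 - Matrix.vecMulVec z.2 φ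
      map_add' := fun z w => by ext i j; simp [Matrix.vecMulVec_apply]; ring
      map_smul' := fun s z => by ext i j; simp [Matrix.vecMulVec_apply]; ring }
  have hrange : LinearMap.range D ≤ LinearMap.range Φ := by
    rintro _ ⟨M, rfl⟩
    refine ⟨(φ ᵥ* M, M *ᵥ u), ?_⟩
    simp only [D, Φ, LinearMap.sub_apply, LinearMap.mulLeft_apply, LinearMap.mulRight_apply, LinearMap.coe_mk,
      AddHom.coe_mk, hform, Matrix.add_mul, Matrix.mul_add, Matrix.smul_mul, Matrix.mul_smul, one_mul, mul_one,
      Matrix.vecMulVec_mul, Matrix.mul_vecMulVec]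
    abel
  have hne : (u, φ) ≠ ((0 : ι → F), (0 : ι → F)) := fun h => hns a (by
    rw [Prod.mk.injEq] at h
    rw [hform, h.1]
    ext i j
    simp)
  have hker : 1 ≤ Module.finrank F (LinearMap.ker Φ) := by
    refine Nat.one_le_iff_ne_zero.2 fun h0 => hne ?_
    have hmem : ((φ, u) : (ι → F) × (ι → F)) ∈ LinearMap.ker Φ := by simp [Φ]
    rw [Submodule.finrank_eq_zero.1 h0, Submodule.mem_bot] at hmem
    rw [Prod.mk_eq_zero] at hmem
    rw [hmem.1, hmem.2]
  have h1 := LinearMap.finrank_range_add_finrank_ker Φ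
  have h2' := LinearMap.finrank_range_add_finrank_ker D
  rw [Module.finrank_prod, Module.finrank_fintype_fun_eq_card, hcard] at h1
  rw [Module.finrank_matrix, Module.finrank_self, hcard] at h2'
  have h3 := Submodule.finrank_mono hrange
  have h4 : Module.finrank F (LinearMap.ker D) ≤ o := hK
  omega

end CfsgLib.PauliFour
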