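import Cfsg.Agent.Lib.PauliFour.Four
import Cfsg.Prelude.Def_ClassicalGeometry

/-!
Pauli groups inside `Sp_4`: the five self-adjoint lines.
-/

set_option autoImplicit false
set_option linter.unusedSectionVars false
set_option linter.style.haveILetI false

namespace CfsgLib.PauliFour

open scoped Matrix
open Cfsg.Geo CfsgLib.SmallDim

variable {F : Type*} [Field F]

local notation "J₄" => Matrix.J (Fin 2) F
local notation "M₄" => Matrix (Fin 2 ⊕ Fin 2) (Fin 2 ⊕ Fin 2) F

theorem mem_spGL_iff_matrix {g : GL (Fin 2 ⊕ Fin 2) F} :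
    g ∈ Cfsg.spGL 2 F ↔ (g : M₄)ᵀ * J₄ * (g : M₄) = J₄ := by
  have hg : ∀ u v : Fin 2 ⊕ Fin 2 → F, Cfsg.sympForm 2 F ((g : M₄) *ᵥ u) ((g : M₄) *ᵥ v) =
      u ⬝ᵥ (((g : M₄)ᵀ * J₄ * (g : M₄)) *ᵥ v) := fun u v => by
    simp only [Cfsg.sympForm]
    rw [← Matrix.mulVec_mulVec, ← Matrix.mulVec_mulVec, Matrix.dotProduct_mulVec (A := (g : M₄)ᵀ),
      Matrix.vecMul_transpose]
  constructor
  · intro h
    ext i j
    have h1 : Cfsg.sympForm 2 F ((g : M₄) *ᵥ Pi.single i 1) ((g : M₄) *ᵥ Pi.single j 1) =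
        Cfsg.sympForm 2 F (Pi.single i 1) (Pi.single j 1) := h _ _
    rw [hg, Cfsg.sympForm] at h1
    simpa using h1
  · intro h u v
    show Cfsg.sympForm 2 F ((g : M₄) *ᵥ u) ((g : M₄) *ᵥ v) = _
    rw [hg, h]
    rfl

/-- The adjoint for the symplectic form. -/
def adj (M : M₄) : M₄ := -(J₄ * Mᵀ * J₄)

theorem adj_mul (M N : M₄) : adj (M * N) = adj N * adj M := by
  simp only [adj, Matrix.transpose_mul, neg_mul_neg]
  calc -(J₄ * (Nᵀ * Mᵀ) * J₄) = J₄ * Nᵀ * (J₄ * J₄) * Mᵀ * J₄ := by
        rw [Matrix.J_squared]; simp [mul_assoc]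
    _ = _ := by simp [mul_assoc]

theorem adj_one : adj (1 : M₄) = 1 := by simp [adj, Matrix.J_squared]

theorem adj_smul (c : F) (M : M₄) : adj (c • M) = c • adj M := by
  simp [adj, Matrix.transpose_smul]

theorem adj_sub (M N : M₄) : adj (M - N) = adj M - adj N := by
  simp only [adj, Matrix.transpose_sub, Matrix.mul_sub, Matrix.sub_mul]
  abel

theorem adj_eq_inv_of_mem {g : GL (Fin 2 ⊕ Fin 2) F} (hg : g ∈ Cfsg.spGL 2 F) :
    adj (g : M₄) = ((g⁻¹ : GL (Fin 2 ⊕ Fin 2) F) : M₄) := by
  have h := mem_spGL_iff_matrix.1 hg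
  have h' : adj (g : M₄) * (g : M₄) = 1 := by
    rw [adj, Matrix.neg_mul, mul_assoc, mul_assoc, ← mul_assoc _ᵀ, h, Matrix.J_squared, neg_neg]
  calc adj (g : M₄) = adj (g : M₄) * g * ((g⁻¹ : GL (Fin 2 ⊕ Fin 2) F) : M₄) := by
        rw [mul_assoc, Units.mul_inv, mul_one]
    _ = _ := by rw [h', one_mul]

theorem mem_spGL_of_adj {g : GL (Fin 2 ⊕ Fin 2) F} (h : adj (g : M₄) * (g : M₄) = 1) : g ∈ Cfsg.spGL 2 F := by
  rw [mem_spGL_iff_matrix]
  calc (g : M₄)ᵀ * J₄ * g = -(J₄ * J₄) * ((g : M₄)ᵀ * J₄ * g) := by rw [Matrix.J_squared, neg_neg, one_mul]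
    _ = J₄ * (adj (g : M₄) * g) := by simp [adj, mul_assoc]
    _ = J₄ := by rw [h, mul_one]

/-- Coordinates of a skew-symmetric matrix. -/
theorem finrank_skew (h2 : (2 : F) ≠ 0) :
    ∀ V : Submodule F M₄, (∀ A, A ∈ V ↔ Aᵀ = -A) → Module.finrank F V = 6 := by
  intro V hV
  have hentry : ∀ A : V, ∀ i j, (A : M₄) j i = -(A : M₄) i j := fun A i j => by
    simpa using congrFun (congrFun ((hV _).1 A.2) i) j
  have hdiag : ∀ A : V, ∀ i, (A : M₄) i i = 0 := fun A i => by
    have h := hentry A i i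
    have : (2 : F) * (A : M₄) i i = 0 := by linear_combination h
    exact (mul_eq_zero.1 this).resolve_left h2
  let e : V →ₗ[F] (Fin 6 → F) :=
    { toFun := fun A => ![(A : M₄) (.inl 0) (.inl 1), (A : M₄) (.inl 0) (.inr 0), (A : M₄) (.inl 0) (.inr 1),
        (A : M₄) (.inl 1) (.inr 0), (A : M₄) (.inl 1) (.inr 1), (A : M₄) (.inr 0) (.inr 1)]
      map_add' := fun A B => by funext k; fin_cases k <;> rfl
      map_smul' := fun c A => by funext k; fin_cases k <;> rfl }
  have hb : Function.Bijective e := by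
    refine ⟨(injective_iff_map_eq_zero e).2 fun A hA => ?_, fun w => ?_⟩
    · have h0 : (A : M₄) (.inl 0) (.inl 1) = 0 := congrFun hA 0
      have h1 : (A : M₄) (.inl 0) (.inr 0) = 0 := congrFun hA 1
      have h3 : (A : M₄) (.inl 0) (.inr 1) = 0 := congrFun hA 2
      have h4 : (A : M₄) (.inl 1) (.inr 0) = 0 := congrFun hA 3
      have h5 : (A : M₄) (.inl 1) (.inr 1) = 0 := congrFun hA 4
      have h6 : (A : M₄) (.inr 0) (.inr 1) = 0 := congrFun hA 5
      have hneg : ∀ i j, (A : M₄) i j = 0 → (A : M₄) j i = 0 := fun i j h => by rw [hentry A, h, neg_zero]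
      refine Subtype.ext ?_
      ext i j
      show (A : M₄) i j = 0
      match i, j with
      | .inl 0, .inl 0 => exact hdiag A _
      | .inl 0, .inl 1 => exact h0
      | .inl 0, .inr 0 => exact h1
      | .inl 0, .inr 1 => exact h3
      | .inl 1, .inl 0 => exact hneg _ _ h0
      | .inl 1, .inl 1 => exact hdiag A _
      | .inl 1, .inr 0 => exact h4
      | .inl 1, .inr 1 => exact h5
      | .inr 0, .inl 0 => exact hneg _ _ h1
      | .inr 0, .inl 1 => exact hneg _ _ h4
      | .inr 0, .inr 0 => exact hdiag A _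
      | .inr 0, .inr 1 => exact h6
      | .inr 1, .inl 0 => exact hneg _ _ h3
      | .inr 1, .inl 1 => exact hneg _ _ h5
      | .inr 1, .inr 0 => exact hneg _ _ h6
      | .inr 1, .inr 1 => exact hdiag A _
    · refine ⟨⟨Matrix.fromBlocks !![0, w 0; -w 0, 0] !![w 1, w 2; w 3, w 4]
          !![-w 1, -w 3; -w 2, -w 4] !![0, w 5; -w 5, 0], (hV _).2 ?_⟩, ?_⟩
      · ext i j
        rcases i with i | i <;> rcases j with j | j <;> fin_cases i <;> fin_cases j <;> simp
      · funext k
        fin_cases k <;> simp [e]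
  rw [(LinearEquiv.ofBijective e hb).finrank_eq, Module.finrank_fintype_fun_eq_card, Fintype.card_fin]

variable [Finite F] {R : Subgroup (GL (Fin 2 ⊕ Fin 2) F)}

/-- The self-adjoint lines other than the trivial one. -/
def selfAdjLines (R : Subgroup (GL (Fin 2 ⊕ Fin 2) F)) : Set (R ⧸ Subgroup.center R) :=
  {q | q ≠ 1 ∧ adj (rep R q) = rep R q}

theorem adj_rep (hR : IsPauli R) (hRf : R ≤ Cfsg.spGL 2 F) (q : R ⧸ Subgroup.center R) :
    (rep R q * rep R q = 1 ∧ adj (rep R q) = rep R q) ∨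
      (rep R q * rep R q = -1 ∧ adj (rep R q) = -rep R q) := by
  have hadj := adj_eq_inv_of_mem (hRf q.out.2)
  change adj (rep R q) = _ at hadj
  set g : GL (Fin 2 ⊕ Fin 2) F := ((q.out : R) : GL (Fin 2 ⊕ Fin 2) F)
  have hrep : rep R q = (g : M₄) := rfl
  rcases hR.sq g q.out.2 with h | h
  · refine Or.inl ⟨h, ?_⟩
    rw [hadj, hrep]
    calc ((g⁻¹ : GL _ F) : M₄) = ((g⁻¹ : GL _ F) : M₄) * ((g : M₄) * g) := by rw [h, mul_one]
      _ = _ := by rw [← mul_assoc, Units.inv_mul, one_mul]
  · refine Or.inr ⟨h, ?_⟩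
    rw [hadj, hrep]
    calc ((g⁻¹ : GL _ F) : M₄) = -(((g⁻¹ : GL _ F) : M₄) * ((g : M₄) * g)) := by rw [h]; simp
      _ = _ := by rw [← mul_assoc, Units.inv_mul, one_mul]

/-- There are exactly five nontrivial self-adjoint lines. -/
theorem ncard_selfAdjLines (hR : IsPauli R) (hRf : R ≤ Cfsg.spGL 2 F) (h2 : (2 : F) ≠ 0) :
    (selfAdjLines R).ncard = 5 := by
  classical
  have hne := card_ne_zero_of_four (ι := Fin 2 ⊕ Fin 2) (by simp) h2
  haveI : Fintype (R ⧸ Subgroup.center R) := Fintype.ofFinite _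
  set b := repBasis hR h2 hne
  have hb : ∀ p, b p = rep R p := fun p => Module.Basis.mk_apply _ _ p
  let T : M₄ →ₗ[F] M₄ :=
    { toFun := fun M => adj M
      map_add' := fun M N => by
        simp only [adj, Matrix.transpose_add, Matrix.mul_add, Matrix.add_mul]; abel
      map_smul' := fun c M => adj_smul c M }
  set S : Submodule F M₄ := LinearMap.ker (T - LinearMap.id)
  have hS : ∀ M, M ∈ S ↔ adj M = M := fun M => by simp [S, T, sub_eq_zero]
  -- dimension six
  have h6 : Module.finrank F S = 6 := by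
    let L : M₄ ≃ₗ[F] M₄ :=
      { toFun := fun M => J₄ * M
        invFun := fun M => -(J₄ * M)
        map_add' := fun M N => Matrix.mul_add _ _ _
        map_smul' := fun c M => Matrix.mul_smul _ _ _
        left_inv := fun M => by show -(J₄ * (J₄ * M)) = M; rw [← mul_assoc, Matrix.J_squared]; simp
        right_inv := fun M => by show J₄ * -(J₄ * M) = M; rw [Matrix.mul_neg, ← mul_assoc, Matrix.J_squared]; simp }
    rw [(L.submoduleMap S).finrank_eq]
    refine finrank_skew h2 _ fun A => ?_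
    rw [Submodule.mem_map_equiv, hS]
    show adj (-(J₄ * A)) = -(J₄ * A) ↔ _
    have e : adj (-(J₄ * A)) = J₄ * Aᵀ := by
      simp only [adj, Matrix.transpose_neg, Matrix.transpose_mul, Matrix.J_transpose, Matrix.mul_neg,
        neg_neg, mul_assoc, Matrix.J_squared, mul_one]
    rw [e, ← Matrix.mul_neg]
    exact ⟨fun h => by
      have h' := congrArg (fun X => J₄ * X) h
      simp [← mul_assoc, Matrix.J_squared] at h'
      exact neg_eq_iff_eq_neg.1 h', fun h => by rw [h]⟩
  -- the self-adjoint lines form a basis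
  set P : Finset (R ⧸ Subgroup.center R) := Finset.univ.filter fun q => adj (rep R q) = rep R q with hP
  have hspan : S = Submodule.span F (Set.range fun q : P => b q) := by
    refine le_antisymm (fun M hM => ?_) (Submodule.span_le.2 ?_)
    · have hz : ∀ q ∉ P, b.repr M q = 0 := by
        intro q hq
        have hq' : adj (rep R q) = -rep R q :=
          ((adj_rep hR hRf q).resolve_left fun h => hq (by simp [hP, h.2])).2
        have hTM : T M = M := (hS M).1 hM
        have h := congrArg (fun X => b.repr X q) ((congrArg T (b.sum_repr M)).trans hTM)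
        simp only [map_sum, map_smul, Finsupp.coe_finsetSum, Finset.sum_apply, Finsupp.smul_apply,
          smul_eq_mul] at h
        rw [Finset.sum_eq_single q] at h
        · rw [show T (b q) = -b q by rw [hb]; exact hq', map_neg, Module.Basis.repr_self] at h
          simp only [Finsupp.neg_apply, Finsupp.single_eq_same, mul_neg, mul_one] at h
          exact (mul_eq_zero.1 (show (2 : F) * b.repr M q = 0 by linear_combination -h)).resolve_left h2
        · intro p _ hp
          rcases adj_rep hR hRf p with ⟨-, h'⟩ | ⟨-, h'⟩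
          · rw [show T (b p) = b p by rw [hb]; exact h', Module.Basis.repr_self,
              Finsupp.single_eq_of_ne (Ne.symm hp), mul_zero]
          · rw [show T (b p) = -b p by rw [hb]; exact h', map_neg, Module.Basis.repr_self, Finsupp.neg_apply,
              Finsupp.single_eq_of_ne (Ne.symm hp), neg_zero, mul_zero]
        · exact fun h' => absurd (Finset.mem_univ q) h'
      rw [← b.sum_repr M]
      refine Submodule.sum_mem _ fun q _ => ?_
      by_cases hq : q ∈ P
      · exact Submodule.smul_mem _ _ (Submodule.subset_span ⟨⟨q, hq⟩, rfl⟩)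
      · rw [hz q hq, zero_smul]; exact Submodule.zero_mem _
    · rintro _ ⟨q, rfl⟩
      show b q ∈ S
      rw [hS, hb]
      exact (Finset.mem_filter.1 q.2).2
  have hP6 : P.card = 6 := by
    rw [← h6, hspan, finrank_span_eq_card (b := fun q : P => b q) (b.linearIndependent.comp _ Subtype.val_injective),
      Fintype.card_coe]
  have h1 : (1 : R ⧸ Subgroup.center R) ∈ P := by
    refine Finset.mem_filter.2 ⟨Finset.mem_univ _, ?_⟩
    obtain ⟨c, hc, h⟩ := eq_smul_rep hR (1 : R)
    rw [QuotientGroup.mk_one, OneMemClass.coe_one, Units.val_one] at h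
    have : rep R 1 = c⁻¹ • (1 : M₄) := by rw [h, smul_smul, inv_mul_cancel₀ hc, one_smul]
    rw [this, adj_smul, adj_one]
  have : selfAdjLines R = ↑(P.erase 1) := by
    ext q; simp [selfAdjLines, hP, and_comm]
  rw [this, Set.ncard_coe_finset, Finset.card_erase_of_mem h1, hP6]

end CfsgLib.PauliFour
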