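import Cfsg.Agent.Lib.PauliFour.SympFrame

/-!
Elements of `Sp_4` with square `±1` are conjugate.
-/

set_option autoImplicit false
set_option linter.unusedSectionVars false
set_option linter.style.haveILetI false

namespace CfsgLib.PauliFour

open scoped Matrix
open Cfsg.Geo Polynomial

variable {F : Type*} [Field F]

local notation "J₄" => Matrix.J (Fin 2) F
local notation "M₄" => Matrix (Fin 2 ⊕ Fin 2) (Fin 2 ⊕ Fin 2) F
local notation "B₄" => Cfsg.sympForm 2 F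

theorem sympForm_add_left (u u' v : Fin 2 ⊕ Fin 2 → F) : B₄ (u + u') v = B₄ u v + B₄ u' v := by
  simp [Cfsg.sympForm, add_dotProduct]

theorem sympForm_add_right (u v v' : Fin 2 ⊕ Fin 2 → F) : B₄ u (v + v') = B₄ u v + B₄ u v' := by
  simp [Cfsg.sympForm, Matrix.mulVec_add, dotProduct_add]

theorem sympForm_sub_left (u u' v : Fin 2 ⊕ Fin 2 → F) : B₄ (u - u') v = B₄ u v - B₄ u' v := by
  simp [Cfsg.sympForm, sub_dotProduct]

theorem sympForm_sub_right (u v v' : Fin 2 ⊕ Fin 2 → F) : B₄ u (v - v') = B₄ u v - B₄ u v' := by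
  simp [Cfsg.sympForm, Matrix.mulVec_sub, dotProduct_sub]

theorem sympForm_smul_left (c : F) (u v : Fin 2 ⊕ Fin 2 → F) : B₄ (c • u) v = c * B₄ u v := by
  simp [Cfsg.sympForm, smul_dotProduct]

theorem sympForm_smul_right (c : F) (u v : Fin 2 ⊕ Fin 2 → F) : B₄ u (c • v) = c * B₄ u v := by
  simp [Cfsg.sympForm, Matrix.mulVec_smul, dotProduct_smul]

theorem sympForm_neg_left (u v : Fin 2 ⊕ Fin 2 → F) : B₄ (-u) v = -B₄ u v := by
  simp [Cfsg.sympForm, neg_dotProduct]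

theorem sympForm_neg_right (u v : Fin 2 ⊕ Fin 2 → F) : B₄ u (-v) = -B₄ u v := by
  simp [Cfsg.sympForm, Matrix.mulVec_neg]

theorem sympForm_swap (u v : Fin 2 ⊕ Fin 2 → F) : B₄ v u = -B₄ u v := by
  have h := sympForm_self (u + v)
  rw [sympForm_add_left, sympForm_add_right, sympForm_add_right, sympForm_self, sympForm_self] at h
  linear_combination h

/-- A symplectic element carrying the standard basis to given vectors. -/
theorem exists_mem_spGL_of_frame {e f e' f' : Fin 2 ⊕ Fin 2 → F} (h1 : B₄ e f = -1) (h2 : B₄ e' f' = -1)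
    (h3 : B₄ e e' = 0) (h4 : B₄ e f' = 0) (h5 : B₄ f e' = 0) (h6 : B₄ f f' = 0) :
    ∃ P ∈ Cfsg.spGL 2 F, (P : M₄) = Matrix.of fun i j => (Sum.elim ![e, e'] ![f, f'] j) i := by
  set col : Fin 2 ⊕ Fin 2 → (Fin 2 ⊕ Fin 2 → F) := Sum.elim ![e, e'] ![f, f'] with hcol
  set P : M₄ := Matrix.of fun i j => col j i with hP
  have hgram : Pᵀ * J₄ * P = J₄ := by
    ext j k
    have hjk : (Pᵀ * J₄ * P) j k = B₄ (col j) (col k) := by
      rw [mul_assoc, Matrix.mul_apply]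
      rfl
    rw [hjk]
    rcases j with j | j <;> rcases k with k | k <;> fin_cases j <;> fin_cases k <;>
      simp [hcol, Matrix.J, sympForm_self, h1, h2, h3, h4, h5, h6, sympForm_swap e f, sympForm_swap e' f',
        sympForm_swap e e', sympForm_swap e f', sympForm_swap f e', sympForm_swap f f']
  have hdet : IsUnit P := by
    have h : adj P * P = 1 := by
      rw [adj, Matrix.neg_mul, mul_assoc, mul_assoc, ← mul_assoc Pᵀ, hgram, Matrix.J_squared, neg_neg]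
    exact ⟨⟨P, adj P, mul_eq_one_comm.1 h, h⟩, rfl⟩
  exact ⟨hdet.unit, mem_spGL_iff_matrix.2 (by rw [IsUnit.unit_spec]; exact hgram), hdet.unit_spec⟩

variable (h2 : (2 : F) ≠ 0) {x : GL (Fin 2 ⊕ Fin 2) F} (hx : x ∈ Cfsg.spGL 2 F)
include hx

theorem sympForm_map (u v : Fin 2 ⊕ Fin 2 → F) : B₄ ((x : M₄) *ᵥ u) ((x : M₄) *ᵥ v) = B₄ u v := hx u v

include h2

/-- Normal form of a non-scalar involution. -/
theorem exists_frame_one (hsq : (x : M₄) * x = 1) (hne : (x : M₄) ≠ 1) (hne' : (x : M₄) ≠ -1) :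
    ∃ P ∈ Cfsg.spGL 2 F, (x : M₄) * (P : M₄) = (P : M₄) * Matrix.diagonal (Sum.elim ![1, -1] ![1, -1]) := by
  have hxx : ∀ v, (x : M₄) *ᵥ ((x : M₄) *ᵥ v) = v := fun v => by
    rw [Matrix.mulVec_mulVec, hsq, Matrix.one_mulVec]
  have hpair : ∀ s : F, (s = 1 ∨ s = -1) → (∃ u, u + s • ((x : M₄) *ᵥ u) ≠ 0) →
      ∃ e f, (x : M₄) *ᵥ e = s • e ∧ (x : M₄) *ᵥ f = s • f ∧ B₄ e f = -1 := by
    rintro s hs ⟨u, hu⟩
    have hs2 : s * s = 1 := by rcases hs with rfl | rfl <;> simp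
    have heig : ∀ v, (x : M₄) *ᵥ (v + s • ((x : M₄) *ᵥ v)) = s • (v + s • ((x : M₄) *ᵥ v)) := fun v => by
      rw [Matrix.mulVec_add, Matrix.mulVec_smul, hxx, smul_add, smul_smul, hs2, one_smul, add_comm]
    set e := u + s • ((x : M₄) *ᵥ u) with he
    obtain ⟨w, hw⟩ : ∃ w, B₄ e w ≠ 0 := by
      by_contra! h
      exact hu (eq_zero_of_sympForm _ h)
    have hef : B₄ e (w + s • ((x : M₄) *ᵥ w)) = 2 * B₄ e w := by
      have h1 : B₄ e ((x : M₄) *ᵥ w) = s * B₄ e w := by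
        calc B₄ e ((x : M₄) *ᵥ w) = B₄ ((x : M₄) *ᵥ e) ((x : M₄) *ᵥ ((x : M₄) *ᵥ w)) := (sympForm_map hx _ _).symm
          _ = _ := by rw [hxx, heig u, sympForm_smul_left]
      rw [sympForm_add_right, sympForm_smul_right, h1, ← mul_assoc, hs2]; ring
    refine ⟨e, (-(2 * B₄ e w)⁻¹) • (w + s • ((x : M₄) *ᵥ w)), heig u, ?_, ?_⟩
    · rw [Matrix.mulVec_smul, heig, smul_comm]
    · rw [sympForm_smul_right, hef, neg_mul, inv_mul_cancel₀ (mul_ne_zero h2 hw)]
  obtain ⟨e, f, he, hf, hef⟩ := hpair 1 (Or.inl rfl) (by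
    by_contra! h
    refine hne' (Matrix.ext_of_mulVec_single fun i => ?_)
    have := h (Pi.single i 1)
    rw [one_smul, add_eq_zero_iff_eq_neg'] at this
    rw [this, Matrix.neg_mulVec, Matrix.one_mulVec])
  obtain ⟨e', f', he', hf', hef'⟩ := hpair (-1) (Or.inr rfl) (by
    by_contra! h
    refine hne (Matrix.ext_of_mulVec_single fun i => ?_)
    have := h (Pi.single i 1)
    rw [neg_one_smul, ← sub_eq_add_neg, sub_eq_zero] at this
    rw [← this, Matrix.one_mulVec])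
  rw [one_smul] at he hf
  rw [neg_one_smul] at he' hf'
  have horth : ∀ p m, (x : M₄) *ᵥ p = p → (x : M₄) *ᵥ m = -m → B₄ p m = 0 := by
    intro p m hp hm
    have h := sympForm_map hx p m
    rw [hp, hm, sympForm_neg_right] at h
    exact (mul_eq_zero.1 (show (2 : F) * B₄ p m = 0 by linear_combination -h)).resolve_left h2
  obtain ⟨P, hP, hPm⟩ := exists_mem_spGL_of_frame hef hef' (horth _ _ he he') (horth _ _ he hf')
    (horth _ _ hf he') (horth _ _ hf hf')
  refine ⟨P, hP, Matrix.ext fun i j => ?_⟩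
  rw [Matrix.mul_diagonal, hPm]
  have hj : ∀ (j : Fin 2 ⊕ Fin 2), (x : M₄) *ᵥ (Sum.elim ![e, e'] ![f, f'] j) =
      (Sum.elim ![(1 : F), -1] ![1, -1] j) • Sum.elim ![e, e'] ![f, f'] j := by
    rintro (j | j) <;> fin_cases j <;> simp [he, he', hf, hf']
  have h := congrFun (hj j) i
  rw [Pi.smul_apply, smul_eq_mul, mul_comm] at h
  exact h

/-- Normal form of an element with square `-1`. -/
theorem exists_frame_neg_one [Finite F] (hsq : (x : M₄) * x = -1) :
    ∃ P ∈ Cfsg.spGL 2 F, (x : M₄) * (P : M₄) = (P : M₄) * J₄ := by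
  classical
  haveI := Fintype.ofFinite F
  have hxx : ∀ v, (x : M₄) *ᵥ ((x : M₄) *ᵥ v) = -v := fun v => by
    rw [Matrix.mulVec_mulVec, hsq, Matrix.neg_mulVec, Matrix.one_mulVec]
  have hsym : ∀ u v, B₄ v ((x : M₄) *ᵥ u) = B₄ u ((x : M₄) *ᵥ v) := fun u v => by
    rw [← sympForm_map hx v, hxx, sympForm_neg_right, ← sympForm_swap]
  have hscale : ∀ v, B₄ v ((x : M₄) *ᵥ v) ≠ 0 →
      ∃ a b : F, B₄ (a • v + b • ((x : M₄) *ᵥ v)) ((x : M₄) *ᵥ (a • v + b • ((x : M₄) *ᵥ v))) = -1 := by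
    intro v hc
    set c := B₄ v ((x : M₄) *ᵥ v)
    obtain ⟨a, b, hab⟩ := FiniteField.exists_root_sum_quadratic (R := F)
      (f := Polynomial.X ^ 2) (g := Polynomial.X ^ 2 - Polynomial.C (-c⁻¹)) (degree_X_pow 2)
      (degree_X_pow_sub_C two_pos _) (FiniteField.odd_card_of_char_ne_two fun h => h2 (by
        haveI : CharP F 2 := by
          have := ringChar.charP F
          rwa [h] at this
        exact CharP.cast_eq_zero F 2))
    refine ⟨a, b, ?_⟩
    simp only [eval_pow, eval_X, eval_sub, eval_C] at hab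
    simp only [Matrix.mulVec_add, Matrix.mulVec_smul, hxx, sympForm_add_left, sympForm_add_right,
      sympForm_smul_left, sympForm_smul_right, sympForm_neg_right, sympForm_self, sympForm_swap v ((x : M₄) *ᵥ v)]
    have hcc : c * c⁻¹ = 1 := mul_inv_cancel₀ hc
    linear_combination c * hab - hcc
  obtain ⟨v, hv⟩ : ∃ v, B₄ v ((x : M₄) *ᵥ v) ≠ 0 := by
    by_contra! h
    have h0 : ∀ u v, B₄ u ((x : M₄) *ᵥ v) = 0 := fun u v => by
      have h' := h (u + v)
      rw [Matrix.mulVec_add, sympForm_add_left, sympForm_add_right, sympForm_add_right, h u, h v, hsym u v] at h'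
      exact (mul_eq_zero.1 (show (2 : F) * B₄ u ((x : M₄) *ᵥ v) = 0 by linear_combination h')).resolve_left h2
    refine x.ne_zero (Matrix.ext_of_mulVec_single fun i => ?_)
    rw [Matrix.zero_mulVec]
    refine eq_zero_of_sympForm _ fun w => ?_
    rw [sympForm_swap w, h0, neg_zero]
  obtain ⟨a, b, hab⟩ := hscale v hv
  set e := a • v + b • ((x : M₄) *ᵥ v) with he
  set f := (x : M₄) *ᵥ e with hf
  let Pr : (Fin 2 ⊕ Fin 2 → F) → (Fin 2 ⊕ Fin 2 → F) := fun w => w + B₄ w f • e - B₄ w e • f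
  have hfe : B₄ f e = 1 := by rw [sympForm_swap, hab, neg_neg]
  have hPe : ∀ w, B₄ (Pr w) e = 0 ∧ B₄ (Pr w) f = 0 := fun w => by
    constructor <;> simp only [Pr, sympForm_add_left, sympForm_sub_left, sympForm_smul_left, sympForm_self, hfe,
      hab] <;> ring
  have hxf : (x : M₄) *ᵥ f = -e := hxx e
  have hPx : ∀ u, B₄ (Pr u) e = 0 → ∀ s, B₄ s ((x : M₄) *ᵥ Pr u) = B₄ (Pr s) ((x : M₄) *ᵥ Pr u) := by
    intro u _ s
    have h1 : B₄ e ((x : M₄) *ᵥ Pr u) = 0 := by rw [hsym, ← hf, (hPe u).2]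
    have h2 : B₄ f ((x : M₄) *ᵥ Pr u) = 0 := by
      rw [hsym, hxf, sympForm_neg_right, (hPe u).1, neg_zero]
    simp only [Pr, sympForm_add_left, sympForm_sub_left, sympForm_smul_left] at h1 h2 ⊢
    rw [h1, h2]; ring
  obtain ⟨w, hw⟩ : ∃ w, Pr w ≠ 0 := by
    by_contra! h
    let L : (Fin 2 ⊕ Fin 2 → F) →ₗ[F] F × F :=
      { toFun := fun w => (B₄ w f, B₄ w e)
        map_add' := fun u v => by simp [sympForm_add_left]
        map_smul' := fun c u => by simp [sympForm_smul_left] }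
    have hL : Function.Injective L := (injective_iff_map_eq_zero L).2 fun u hu => by
      have h' := h u
      simp only [L, LinearMap.coe_mk, AddHom.coe_mk, Prod.mk_eq_zero] at hu
      simpa [Pr, hu.1, hu.2] using h'
    have := LinearMap.finrank_le_finrank_of_injective hL
    simp at this
  obtain ⟨v', hv'⟩ : ∃ u, B₄ (Pr u) ((x : M₄) *ᵥ Pr u) ≠ 0 := by
    by_contra! h
    have hadd : ∀ u v, Pr (u + v) = Pr u + Pr v := fun u v => by
      simp only [Pr, sympForm_add_left, add_smul]; abel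
    have h0 : ∀ u v, B₄ (Pr u) ((x : M₄) *ᵥ Pr v) = 0 := fun u v => by
      have h' := h (u + v)
      rw [hadd, Matrix.mulVec_add, sympForm_add_left, sympForm_add_right, sympForm_add_right, h u, h v,
        hsym (Pr u) (Pr v)] at h'
      exact (mul_eq_zero.1 (show (2 : F) * B₄ (Pr u) ((x : M₄) *ᵥ Pr v) = 0 by linear_combination h')).resolve_left h2
    apply hw
    have hz : (x : M₄) *ᵥ Pr w = 0 := eq_zero_of_sympForm _ fun s => by
      rw [sympForm_swap s, hPx w (hPe w).1 s, h0, neg_zero]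
    have := hxx (Pr w)
    rw [hz, Matrix.mulVec_zero] at this
    exact neg_eq_zero.1 this.symm
  obtain ⟨a', b', hab'⟩ := hscale _ hv'
  set e' := a' • Pr v' + b' • ((x : M₄) *ᵥ Pr v') with he'
  set f' := (x : M₄) *ᵥ e' with hf'
  have hxf' : (x : M₄) *ᵥ f' = -e' := hxx e'
  have hse : B₄ e e' = 0 := by
    rw [he', sympForm_add_right, sympForm_smul_right, sympForm_smul_right, sympForm_swap (Pr v') e, (hPe v').1,
      hsym, ← hf, (hPe v').2]
    ring
  have hsf : B₄ f e' = 0 := by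
    rw [he', sympForm_add_right, sympForm_smul_right, sympForm_smul_right, sympForm_swap (Pr v') f, (hPe v').2,
      hsym, hxf, sympForm_neg_right, (hPe v').1]
    ring
  have hef' : B₄ e f' = 0 := by rw [hf', hsym, ← hf, sympForm_swap, hsf, neg_zero]
  have hff' : B₄ f f' = 0 := by rw [hf', hsym, hxf, sympForm_neg_right, sympForm_swap, hse, neg_zero, neg_zero]
  obtain ⟨P, hP, hPm⟩ := exists_mem_spGL_of_frame hab hab' hse hef' hsf hff'
  refine ⟨P, hP, ?_⟩
  refine Matrix.ext fun i j => ?_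
  have hl : ∀ j, ((x : M₄) * (P : M₄)) i j = ((x : M₄) *ᵥ (Sum.elim ![e, e'] ![f, f'] j)) i := fun j => by
    rw [hPm]; rfl
  rw [hl, Matrix.mul_apply]
  rcases j with j | j <;> fin_cases j <;>
    simp [Fintype.sum_sum_type, Fin.sum_univ_two, Matrix.J, hPm, ← hf, ← hf', hxf, hxf']

/-- Two non-scalar symplectic elements with the same square `±1` are conjugate. -/
theorem exists_conj_of_sq [Finite F] {y : GL (Fin 2 ⊕ Fin 2) F} (hy : y ∈ Cfsg.spGL 2 F) {z : F}
    (hz : z = 1 ∨ z = -1) (hsx : (x : M₄) * x = z • 1) (hsy : (y : M₄) * y = z • 1)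
    (hnx : ∀ d : F, (x : M₄) ≠ d • 1) (hny : ∀ d : F, (y : M₄) ≠ d • 1) :
    ∃ g ∈ Cfsg.spGL 2 F, g⁻¹ * x * g = y := by
  obtain ⟨D, P, hP, Q, hQ, e1, e2⟩ : ∃ (D : M₄) (P : GL (Fin 2 ⊕ Fin 2) F) (_ : P ∈ Cfsg.spGL 2 F)
      (Q : GL (Fin 2 ⊕ Fin 2) F) (_ : Q ∈ Cfsg.spGL 2 F), (x : M₄) * (P : M₄) = (P : M₄) * D ∧
      (y : M₄) * (Q : M₄) = (Q : M₄) * D := by
    rcases hz with rfl | rfl
    · rw [one_smul] at hsx hsy
      obtain ⟨P, hP, e1⟩ := exists_frame_one h2 hx hsx (fun h => hnx 1 (by rw [h, one_smul]))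
        (fun h => hnx (-1) (by rw [h, neg_one_smul]))
      obtain ⟨Q, hQ, e2⟩ := exists_frame_one h2 hy hsy (fun h => hny 1 (by rw [h, one_smul]))
        (fun h => hny (-1) (by rw [h, neg_one_smul]))
      exact ⟨_, P, hP, Q, hQ, e1, e2⟩
    · rw [neg_one_smul] at hsx hsy
      obtain ⟨P, hP, e1⟩ := exists_frame_neg_one h2 hx hsx
      obtain ⟨Q, hQ, e2⟩ := exists_frame_neg_one h2 hy hsy
      exact ⟨_, P, hP, Q, hQ, e1, e2⟩
  refine ⟨P * Q⁻¹, mul_mem hP (inv_mem hQ), Units.ext ?_⟩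
  have hy' : (y : M₄) = (Q : M₄) * D * ((Q⁻¹ : GL (Fin 2 ⊕ Fin 2) F) : M₄) := by
    rw [← e2, mul_assoc, Units.mul_inv, mul_one]
  rw [hy', mul_inv_rev, inv_inv]
  simp only [Units.val_mul, mul_assoc]
  rw [← mul_assoc (x : M₄), e1, ← mul_assoc ((P⁻¹ : GL (Fin 2 ⊕ Fin 2) F) : M₄), ← mul_assoc _ (P : M₄),
    Units.inv_mul, one_mul]

end CfsgLib.PauliFour
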