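import Cfsg.Agent.Lib.PauliFour.Symp
import Cfsg.Agent.Lib.PauliFour.Transfer

/-!
Test elements of `Sp_4` for the normaliser of a Pauli group.
-/

set_option autoImplicit false
set_option linter.unusedSectionVars false
set_option linter.style.haveILetI false

namespace CfsgLib.PauliFour

open scoped Matrix
open Cfsg.Geo CfsgLib.SmallDim

variable {F : Type*} [Field F]

local notation "M₄" => Matrix (Fin 2 ⊕ Fin 2) (Fin 2 ⊕ Fin 2) F

/-- A scalar of `Sp_4` squares to one. -/
theorem sq_eq_one_of_scalar_mem {x : GL (Fin 2 ⊕ Fin 2) F} (hx : x ∈ Cfsg.spGL 2 F) {d : F}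
    (hd : (x : M₄) = d • 1) : d * d = 1 := by
  have h := mem_spGL_iff_matrix.1 hx
  rw [hd, Matrix.transpose_smul, Matrix.transpose_one, Matrix.smul_mul, one_mul, Matrix.smul_mul,
    Matrix.mul_smul, mul_one, smul_smul] at h
  have := congrFun (congrFun h (.inl 0)) (.inr 0)
  simp [Matrix.J] at this
  exact this

variable [Finite F] {R : Subgroup (GL (Fin 2 ⊕ Fin 2) F)}

/-- An element of order three in `Sp_4` fixes more than the trivial line. -/
theorem fixedLines_ne_one_symp (hR : IsPauli R) (hRf : R ≤ Cfsg.spGL 2 F) (h2 : (2 : F) ≠ 0)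
    {y : GL (Fin 2 ⊕ Fin 2) F} (hys : y ∈ Cfsg.spGL 2 F)
    (hy : y ∈ Subgroup.normalizer (R : Set (GL (Fin 2 ⊕ Fin 2) F))) {c : F}
    (hy3 : ((y ^ 3 : GL (Fin 2 ⊕ Fin 2) F) : M₄) = c • 1) : Nat.card (fixedLines hy) ≠ 1 := by
  classical
  haveI : Fact (Nat.Prime 3) := ⟨Nat.prime_three⟩
  have hσ : ∀ q ∈ selfAdjLines R, lineMap hy q ∈ selfAdjLines R := by
    rintro q ⟨hq1, hqa⟩
    refine ⟨fun h => hq1 ((lineMap hy).injective (h.trans (map_one _).symm)), ?_⟩
    obtain ⟨s, hs, h⟩ := conj_rep hR hy q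
    have hrep : rep R (lineMap hy q) = s⁻¹ • ((y : M₄) * rep R q * ((y⁻¹ : GL (Fin 2 ⊕ Fin 2) F) : M₄)) := by
      rw [h, smul_smul, inv_mul_cancel₀ hs, one_smul]
    have hy' : adj ((y⁻¹ : GL (Fin 2 ⊕ Fin 2) F) : M₄) = (y : M₄) := by
      rw [adj_eq_inv_of_mem (inv_mem hys), inv_inv]
    rw [hrep, adj_smul, adj_mul, adj_mul, hy', hqa, adj_eq_inv_of_mem hys, mul_assoc]
  haveI : Fintype (selfAdjLines R) := Fintype.ofFinite _
  let π : Equiv.Perm (selfAdjLines R) := Equiv.ofBijective (fun q => ⟨lineMap hy q, hσ q q.2⟩)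
    (Finite.injective_iff_bijective.1 fun a b h => Subtype.ext ((lineMap hy).injective (congrArg Subtype.val h)))
  have hπk : ∀ (k : ℕ) (q : selfAdjLines R), ((π ^ k) q : R ⧸ Subgroup.center R) = (lineMap hy ^ k) q := by
    intro k
    induction k with
    | zero => intro q; rfl
    | succ k ih => intro q; rw [pow_succ', pow_succ', Equiv.Perm.mul_apply, MulAut.mul_apply, ← ih q]; rfl
  have hπ3 : π ^ 3 ^ 1 = 1 := Equiv.ext fun q => Subtype.ext (by
    rw [pow_one, hπk, lineMap_pow_eq_one hR hy hy3]; rfl)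
  have hmod := Equiv.Perm.card_compl_support_modEq hπ3
  have h5 : Fintype.card (selfAdjLines R) = 5 := by
    rw [← Nat.card_eq_fintype_card, Nat.card_coe_set_eq, ncard_selfAdjLines hR hRf h2]
  rw [h5] at hmod
  obtain ⟨q, hq⟩ : π.supportᶜ.Nonempty := by
    rw [← Finset.card_pos]
    by_contra h0
    rw [show π.supportᶜ.card = 0 by omega] at hmod
    exact absurd hmod (by decide)
  rw [Finset.mem_compl, Equiv.Perm.notMem_support] at hq
  intro h1
  have := (Nat.card_eq_one_iff_unique.1 h1).1.elim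
    (⟨q, mem_fixedLines.2 (congrArg Subtype.val hq)⟩ : fixedLines hy) 1
  exact q.2.1 (congrArg Subtype.val this)

omit [Finite F]

/-- The test element: a block `[[τ, -1], [1, 0]]` and an identity block. -/
def sympTest (τ : F) : GL (Fin 2 ⊕ Fin 2) F where
  val := Matrix.fromBlocks (Matrix.diagonal ![τ, 1]) (Matrix.diagonal ![-1, 0]) (Matrix.diagonal ![1, 0])
    (Matrix.diagonal ![0, 1])
  inv := Matrix.fromBlocks (Matrix.diagonal ![0, 1]) (Matrix.diagonal ![1, 0]) (Matrix.diagonal ![-1, 0])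
    (Matrix.diagonal ![τ, 1])
  val_inv := by
    ext (i | i) (j | j) <;> fin_cases i <;> fin_cases j <;>
      simp [Matrix.fromBlocks_multiply]
  inv_val := by
    ext (i | i) (j | j) <;> fin_cases i <;> fin_cases j <;>
      simp [Matrix.fromBlocks_multiply]

theorem sympTest_mem (τ : F) : sympTest τ ∈ Cfsg.spGL 2 F := by
  rw [mem_spGL_iff_matrix]
  ext (i | i) (j | j) <;> fin_cases i <;> fin_cases j <;>
    simp [sympTest, Matrix.J, Matrix.fromBlocks_transpose, Matrix.fromBlocks_multiply, Matrix.mul_apply,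
      Fin.sum_univ_two]

theorem sympTest_trace (τ : F) : Matrix.trace (sympTest τ : M₄) = τ + 2 ∧
    Matrix.trace (((sympTest τ)⁻¹ : GL (Fin 2 ⊕ Fin 2) F) : M₄) = τ + 2 := by
  constructor <;> simp [sympTest, Matrix.trace, Fintype.sum_sum_type, Fin.sum_univ_two] <;> ring

theorem sympTest_ne_scalar (τ d : F) : (sympTest τ : M₄) ≠ d • 1 := fun h => by
  have := congrFun (congrFun h (.inr 0)) (.inl 0)
  simp [sympTest] at this

theorem sympTest_pow_three : ((sympTest (-1 : F)) ^ 3 : GL (Fin 2 ⊕ Fin 2) F) = 1 := by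
  ext (i | i) (j | j) <;> fin_cases i <;> fin_cases j <;>
    simp [pow_succ, sympTest, Matrix.fromBlocks_multiply]

theorem sympTest_pow_five {τ : F} (hτ : τ * τ + τ - 1 = 0) :
    (sympTest τ ^ 5 : GL (Fin 2 ⊕ Fin 2) F) = 1 := by
  have h2 : sympTest τ ^ 2 * sympTest τ ^ 2 = (sympTest τ)⁻¹ := by
    ext (i | i) (j | j) <;> fin_cases i <;> fin_cases j <;>
      simp [sq, sympTest, Matrix.fromBlocks_multiply] <;> grobner
  calc sympTest τ ^ 5 = sympTest τ ^ 2 * sympTest τ ^ 2 * sympTest τ := by group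
    _ = 1 := by rw [h2, inv_mul_cancel]

/-- A transvection. -/
def sympTrans (F : Type*) [Field F] : GL (Fin 2 ⊕ Fin 2) F where
  val := Matrix.fromBlocks 1 (Matrix.diagonal ![1, 0]) 0 1
  inv := Matrix.fromBlocks 1 (Matrix.diagonal ![-1, 0]) 0 1
  val_inv := by
    ext (i | i) (j | j) <;> fin_cases i <;> fin_cases j <;>
      simp [Matrix.fromBlocks_multiply]
  inv_val := by
    ext (i | i) (j | j) <;> fin_cases i <;> fin_cases j <;>
      simp [Matrix.fromBlocks_multiply]

theorem sympTrans_mem : sympTrans F ∈ Cfsg.spGL 2 F := by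
  rw [mem_spGL_iff_matrix]
  ext (i | i) (j | j) <;> fin_cases i <;> fin_cases j <;>
    simp [sympTrans, Matrix.J, Matrix.fromBlocks_transpose, Matrix.fromBlocks_multiply, Matrix.mul_apply,
      Fin.sum_univ_two]

theorem sympTrans_form : (sympTrans F : M₄) =
    (1 : F) • 1 + Matrix.vecMulVec (Pi.single (.inl 0) 1) (Pi.single (.inr 0) 1) := by
  ext (i | i) (j | j) <;> fin_cases i <;> fin_cases j <;>
    simp [sympTrans, Matrix.vecMulVec_apply]

theorem sympTrans_ne_scalar (d : F) : (sympTrans F : M₄) ≠ d • 1 := fun h => by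
  have := congrFun (congrFun h (.inl 0)) (.inr 0)
  simp [sympTrans] at this

theorem sympTrans_pow (k : ℕ) : ((sympTrans F ^ k : GL (Fin 2 ⊕ Fin 2) F) : M₄) =
    Matrix.fromBlocks 1 (Matrix.diagonal ![(k : F), 0]) 0 1 := by
  induction k with
  | zero =>
    ext (i | i) (j | j) <;> fin_cases i <;> fin_cases j <;> simp
  | succ k ih =>
    rw [pow_succ, Units.val_mul, ih]
    ext (i | i) (j | j) <;> fin_cases i <;> fin_cases j <;>
      simp [sympTrans, Matrix.fromBlocks_multiply] <;> ring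

end CfsgLib.PauliFour
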