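import Cfsg.Agent.Lib.PauliFour.Setup4
import Cfsg.Agent.Lib.Generators.GU

/-!
Unitary matrices and the normaliser of a unitary Pauli group.
-/

set_option autoImplicit false
set_option linter.unusedSectionVars false
set_option linter.style.haveILetI false

namespace CfsgLib.PauliFour

open scoped Matrix
open Cfsg.Geo CfsgLib.SmallDim CfsgLib.Generators

variable {F : Type*} [Field F] [Fintype F] {p : ℕ} [Fact p.Prime] [CharP F p] (hF : Fintype.card F = p ^ 2)
include hF

local notation "M₄" => Matrix (Fin 4) (Fin 4) F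

theorem qAdjoint_eq_inv {g : GL (Fin 4) F} (hg : g ∈ Cfsg.GU 4 F p) :
    qAdjoint p (g : M₄) = ((g⁻¹ : GL (Fin 4) F) : M₄) := by
  have h := (mem_GU_iff_qAdjoint hF g).1 hg
  calc qAdjoint p (g : M₄) = qAdjoint p (g : M₄) * (g : M₄) * ((g⁻¹ : GL (Fin 4) F) : M₄) := by
        rw [mul_assoc, Units.mul_inv, mul_one]
    _ = _ := by rw [h, one_mul]

theorem qAdjoint_smul' (c : F) (X : M₄) : qAdjoint p (c • X) = c ^ p • qAdjoint p X := by
  ext i j; simp [qAdjoint, mul_pow]

theorem qAdjoint_pow (X : M₄) (k : ℕ) : qAdjoint p (X ^ k) = qAdjoint p X ^ k := by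
  induction k with
  | zero => simp [qAdjoint_one hF]
  | succ k ih => rw [pow_succ, qAdjoint_mul hF, ih, ← pow_succ']

theorem charpoly_inv_unitary {g : GL (Fin 4) F} (hg : g ∈ Cfsg.GU 4 F p) :
    ((g⁻¹ : GL (Fin 4) F) : M₄).charpoly = (g : M₄).charpoly.map (frobenius F p) := by
  rw [← qAdjoint_eq_inv hF hg, qAdjoint, Matrix.charpoly_transpose,
    show (fun x : F => x ^ p) = ⇑(frobenius F p) from rfl, Matrix.charpoly_map]

theorem trace_inv_unitary {g : GL (Fin 4) F} (hg : g ∈ Cfsg.GU 4 F p) :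
    Matrix.trace ((g⁻¹ : GL (Fin 4) F) : M₄) = Matrix.trace (g : M₄) ^ p := by
  rw [← qAdjoint_eq_inv hF hg, qAdjoint, Matrix.trace_transpose,
    show (fun x : F => x ^ p) = ⇑(frobenius F p) from rfl, ← AddMonoidHom.map_trace (frobenius F p)]
  rfl

variable {R : Subgroup (GL (Fin 4) F)} (hR : IsPauli R) (hRU : R ≤ Cfsg.GU 4 F p)
include hR hRU

/-- The normaliser consists of similitudes. -/
theorem similitude_of_normalizer {y : GL (Fin 4) F} (hy : y ∈ Subgroup.normalizer (R : Set (GL (Fin 4) F))) :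
    ∃ c : F, qAdjoint p (y : M₄) * (y : M₄) = c • 1 := by
  refine hR.centraliser_scalar ?_
  rintro _ ⟨g, hg, rfl⟩
  set g' := y * g * y⁻¹ with hg'
  have hg'R : g' ∈ R := (Subgroup.mem_normalizer_iff.1 hy g).1 hg
  have e1 : (y : M₄) * (g : M₄) = (g' : M₄) * (y : M₄) := by
    rw [← Units.val_mul, ← Units.val_mul, hg']
    congr 1
    group
  have e2 : ((g⁻¹ : GL (Fin 4) F) : M₄) * qAdjoint p (y : M₄) =
      qAdjoint p (y : M₄) * ((g'⁻¹ : GL (Fin 4) F) : M₄) := by
    rw [← qAdjoint_eq_inv hF (hRU hg), ← qAdjoint_mul hF, e1, qAdjoint_mul hF, qAdjoint_eq_inv hF (hRU hg'R)]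
  have e3 : qAdjoint p (y : M₄) * (g' : M₄) = (g : M₄) * qAdjoint p (y : M₄) := by
    calc qAdjoint p (y : M₄) * (g' : M₄)
        = (g : M₄) * (((g⁻¹ : GL (Fin 4) F) : M₄) * qAdjoint p (y : M₄)) * (g' : M₄) := by
          rw [← mul_assoc, Units.mul_inv, one_mul]
      _ = _ := by rw [e2, mul_assoc, mul_assoc, Units.inv_mul, mul_one]
  rw [mul_assoc, e1, ← mul_assoc, e3, mul_assoc]

/-- An element of odd order and determinant one of the normaliser is unitary. -/
theorem mem_GU_of_odd {y : GL (Fin 4) F} (hy : y ∈ Subgroup.normalizer (R : Set (GL (Fin 4) F)))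
    (hdet : (y : M₄).det = 1) {r : ℕ} (hr : Odd r) (hyr : y ^ r = 1) : y ∈ Cfsg.GU 4 F p := by
  obtain ⟨c, hc⟩ := similitude_of_normalizer hF hR hRU hy
  have hd : (qAdjoint p (y : M₄)).det = 1 := by
    rw [qAdjoint, Matrix.det_transpose, show (fun x : F => x ^ p) = ⇑(frobenius F p) from rfl,
      ← RingHom.mapMatrix_apply, ← RingHom.map_det, hdet, map_one]
  have hc4 : c ^ 4 = 1 := by
    have h := congrArg Matrix.det hc
    rw [Matrix.det_mul, hd, hdet, one_mul, Matrix.det_smul, Matrix.det_one, mul_one, Fintype.card_fin] at h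
    exact h.symm
  have hA : qAdjoint p (y : M₄) = c • ((y⁻¹ : GL (Fin 4) F) : M₄) := by
    calc qAdjoint p (y : M₄) = qAdjoint p (y : M₄) * (y : M₄) * ((y⁻¹ : GL (Fin 4) F) : M₄) := by
          rw [mul_assoc, Units.mul_inv, mul_one]
      _ = _ := by rw [hc, Matrix.smul_mul, one_mul]
  have hcr : c ^ r = 1 := by
    have h := qAdjoint_pow hF (y : M₄) r
    rw [hA, _root_.smul_pow, ← Units.val_pow_eq_pow_val, ← Units.val_pow_eq_pow_val, inv_pow, hyr, inv_one,
      Units.val_one, qAdjoint_one hF] at h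
    have := congrFun (congrFun h 0) 0
    simpa using this.symm
  obtain ⟨k, rfl⟩ := hr
  have hc1 : c = 1 := by
    have h2 : c ^ 2 = 1 := by
      have e : (c ^ (2 * k + 1)) ^ 2 = (c ^ 4) ^ k * c ^ 2 := by ring
      rw [hcr, hc4, one_pow, one_pow, one_mul] at e
      exact e.symm
    rw [pow_succ, pow_mul, h2, one_pow, one_mul] at hcr
    exact hcr
  exact (mem_GU_iff_qAdjoint hF y).2 (by rw [hc, hc1, one_smul])

/-- A reflection in the normaliser is unitary. -/
theorem mem_GU_of_reflection (h2 : (2 : F) ≠ 0) {h : GL (Fin 4) F}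
    (hy : h ∈ Subgroup.normalizer (R : Set (GL (Fin 4) F))) (hh : (h : M₄) * h = 1)
    (ht : Matrix.trace (h : M₄) = 2) : qAdjoint p (h : M₄) = h := by
  obtain ⟨c, hc⟩ := similitude_of_normalizer hF hR hRU hy
  have hA : qAdjoint p (h : M₄) = c • (h : M₄) := by
    calc qAdjoint p (h : M₄) = qAdjoint p (h : M₄) * (h : M₄) * (h : M₄) := by rw [mul_assoc, hh, mul_one]
      _ = _ := by rw [hc, Matrix.smul_mul, one_mul]
  have htr := congrArg Matrix.trace hA
  rw [qAdjoint, Matrix.trace_transpose, show (fun x : F => x ^ p) = ⇑(frobenius F p) from rfl,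
    ← AddMonoidHom.map_trace (frobenius F p), ht, Matrix.trace_smul, ht, smul_eq_mul, map_ofNat] at htr
  have hc1 : c = 1 := mul_right_cancel₀ h2 (by rw [one_mul]; exact htr.symm)
  rw [hA, hc1, one_smul]

end CfsgLib.PauliFour
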